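import Cfsg.Agent.Lib.Helper36.StMult
import Cfsg.Agent.Lib.Helper36.StRoomE6
import Cfsg.Agent.Lib.Helper36.StRoomE7
import Cfsg.Agent.Lib.Helper36.StRoomE8
import Cfsg.Agent.S1077
import Cfsg.Agent.S2395
import Cfsg.Agent.S2397

/-!
# The Schur multiplier of `E₆(q)`, `E₇(q)`, `E₈(q)` is the centre of the Steinberg group
-/

set_option autoImplicit false

namespace Cfsg.Agent.Lib.Helper36

open Cfsg.Lie

universe u v

theorem exists_room {D : ChevalleyDatum} (hD : D ∈ [chevE6, chevE7, chevE8]) (K : Type*) [Field K] :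
    ∃ (T : Fast) (dT : ℕ), Agree D T ∧ (slOf K T dT).Room ∧ ∀ r < T.n, ∀ s < T.n, slb T r s = true := by
  simp only [List.mem_cons, List.mem_nil_iff, or_false] at hD
  rcases hD with rfl | rfl | rfl
  · exact ⟨_, _, checksE6.agree, roomE6 K, slbE6⟩
  · exact ⟨_, _, checksE7.agree, roomE7 K, slbE7⟩
  · exact ⟨_, _, checksE8.agree, roomE8 K, slbE8⟩

theorem schur_of_center {D : ChevalleyDatum} (hD : D ∈ [chevE6, chevE7, chevE8]) {K : Type u} [Field K] [Finite K]
    {A : Type v} [CommGroup A] [Finite A] (e : Subgroup.center (D.SteinbergGroup K) ≃* A) :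
    Cfsg.HasSchurMultiplier ↥(D.group K) A := by
  have hD' : D ∈ [chevG2, chevB2, chevD4, chevF4, chevE6, chevE7, chevE8] := by
    simp only [List.mem_cons, List.mem_nil_iff, or_false] at hD ⊢
    tauto
  have hK : D ∈ [chevB2, chevG2] → ∃ x : K, x ≠ 0 ∧ x ≠ 1 := by
    intro h
    exfalso
    simp only [List.mem_cons, List.mem_nil_iff, or_false] at hD h
    rcases hD with rfl | rfl | rfl <;> rcases h with h | h <;>
      exact absurd (congrArg ChevalleyDatum.rank h) (by decide)
  obtain ⟨T, dT, hA, hroom, hsl⟩ := exists_room hD K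
  obtain ⟨θ, hθ, hker, hθX⟩ := Cfsg.Agent.S1077.result (K := K) D hD'
  obtain ⟨ε, hε⟩ := Cfsg.Agent.S2397.result (K := K) D hD' hK
  have hperf := Cfsg.Agent.S2395.result (K := K) D hD' hK
  have hB := Cfsg.Agent.Lib.Helper18.base_of_mem K hD'
  have hperf' : commutator (D.SteinbergGroup K) = ⊤ := by
    have := congrArg (Subgroup.map ε.toMonoidHom) hperf
    rw [commutator_def, Subgroup.map_commutator, ← MonoidHom.range_eq_map,
      MonoidHom.range_eq_top.mpr ε.surjective] at this
    exact this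
  have hinj : ∀ r, r < D.nroots → ∀ t u, (θ.comp ε.toMonoidHom) (D.scGen K r t) =
      (θ.comp ε.toMonoidHom) (D.scGen K r u) → t = u := by
    intro r hr t u h
    have h1 : θ (D.stGen K r t) = θ (D.stGen K r u) := by
      rw [← hε, ← hε]; exact h
    have h2 : D.x K r t = D.x K r u := by
      rw [← hθX r t hr, ← hθX r u hr, h1]
    have h3 : D.x K r (t + -u) = 1 := by
      rw [← hB.x_add r hr, h2, hB.x_add r hr, add_neg_cancel]
      exact (hB.x_one r hr 0).mpr rfl
    have := (hB.x_one r hr _).mp h3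
    linear_combination this
  refine hasSchur_of_universal θ hθ (le_of_eq hker) hperf' ?_ ((MulEquiv.subgroupCongr hker).trans e)
  intro Γ _ σ hσ hc
  obtain ⟨τ, hτ⟩ := exists_cover_lift hA hroom hsl (θ.comp ε.toMonoidHom) hinj σ hσ hc
  refine ⟨τ.comp ε.symm.toMonoidHom, ?_⟩
  rw [← MonoidHom.comp_assoc, hτ]
  ext x
  simp

end Cfsg.Agent.Lib.Helper36
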