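import Cfsg.Agent.Lib.Helper36.ChevFold1
import Cfsg.Agent.Lib.Helper36.ChevTabD4
import Cfsg.Agent.Lib.Helper36.ChevTabG2

/-!
# The intertwiner from the Lie algebra of type G2 to the one of type D4: tables and checks
-/

set_option autoImplicit false

namespace Cfsg.Agent.Lib.Helper36

open Cfsg.Lie

def foldD4 : List PTab :=
  [⟨0x361a0a84c2012068241006028100200, 0xfbaabfa⟩,
   ⟨0xc0502200000381607000000002, 0xf82f02⟩,
   ⟨0xc85c2c000003c180a000000003, 0xe82e02⟩]

def foldInvD4 : List PTab :=
  [⟨0x68300000000001600050200009000000e00000000c05000100602000000200, 0xf008e2080a3f0a⟩]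

def foldOrbD4 : ℕ → List ℕ := fun a => [[0, 2, 3], [1]].getD a []

theorem foldBD4 : pbound (chevG2.rank + chevG2.nroots) (chevD4.rank + chevD4.nroots) foldD4 = true := by decide +kernel

theorem foldB'D4 : pbound (chevD4.rank + chevD4.nroots) (chevG2.rank + chevG2.nroots) foldInvD4 = true := by decide +kernel

theorem foldID4 : pinv fastG2 foldD4 foldInvD4 = true := by decide +kernel

theorem foldPD4 : ∀ a < chevG2.rank, pchk fastD4 fastG2 foldD4 ((foldOrbD4 a).map chevD4.simple) (chevG2.simple a) = true := by decide +kernel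

theorem foldND4 : ∀ a < chevG2.rank, pchk fastD4 fastG2 foldD4 ((foldOrbD4 a).map fun j => chevD4.neg (chevD4.simple j)) (chevG2.neg (chevG2.simple a)) = true := by decide +kernel

theorem foldCD4 : ∀ a < chevG2.rank, pcolchk foldD4 (chevG2.rank + chevG2.simple a) ((foldOrbD4 a).map fun j => chevD4.rank + chevD4.simple j) = true := by decide +kernel

end Cfsg.Agent.Lib.Helper36
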