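import Cfsg.Agent.Lib.Helper36.ChevOut4
import Cfsg.Agent.Lib.Helper43.PA.FieldAut
import Cfsg.Agent.S1081

/-!
# Outer automorphisms of Chevalley groups, part 5: the structure of the outer automorphism group
-/

set_option autoImplicit false

namespace Cfsg.Agent.Lib.Helper36

open Cfsg.Lie Cfsg.Agent.Lib.Helper18 Cfsg.Agent.Lib.Helper17 Cfsg.Agent.Lib.Helper6 Matrix
open scoped commutatorElement

variable {F : Type*} [Field F] {D : ChevalleyDatum}

section

variable (hD : D ∈ [chevG2, chevB2, chevD4, chevF4, chevE6, chevE7, chevE8])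

theorem closure_diag_eq :
    Subgroup.closure {φ : MulAut ↥(D.group F) | D.IsDiagonalAut φ} = (diagHom (F := F) hD).range := by
  have : {φ : MulAut ↥(D.group F) | D.IsDiagonalAut φ} = ((diagHom (F := F) hD).range : Set _) := by
    ext φ
    constructor
    · intro h
      obtain ⟨c, rfl⟩ := (isDiagonalAut_iff hD φ).mp h
      exact ⟨c, rfl⟩
    · rintro ⟨c, rfl⟩
      exact diagOf_isDiagonalAut hD c
  rw [this, Subgroup.closure_eq]

theorem closure_field_eq :
    Subgroup.closure {φ : MulAut ↥(D.group F) | D.IsFieldAut φ} =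
      (fieldHom (base_of_mem F hD) (tabs2_of_mem hD).tab).range := by
  have : {φ : MulAut ↥(D.group F) | D.IsFieldAut φ} =
      ((fieldHom (base_of_mem F hD) (tabs2_of_mem hD).tab).range : Set _) := by
    ext φ
    constructor
    · intro h
      obtain ⟨σ, rfl⟩ := (isFieldAut_iff (base_of_mem F hD) (tabs2_of_mem hD).tab φ).mp h
      exact ⟨σ, rfl⟩
    · rintro ⟨σ, rfl⟩
      exact fieldEquiv_isFieldAut (base_of_mem F hD) σ
  rw [this, Subgroup.closure_eq]

theorem map_closure_diag :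
    (Subgroup.closure {φ : MulAut ↥(D.group F) | D.IsDiagonalAut φ}).map
      (QuotientGroup.mk' (Cfsg.Inn ↥(D.group F))) = (diagOut (F := F) hD).range := by
  rw [closure_diag_eq hD, MonoidHom.map_range]; rfl

theorem map_closure_field :
    (Subgroup.closure {φ : MulAut ↥(D.group F) | D.IsFieldAut φ}).map
      (QuotientGroup.mk' (Cfsg.Inn ↥(D.group F))) = (fieldOut (F := F) hD).range := by
  rw [closure_field_eq hD, MonoidHom.map_range]; rfl

/-- field automorphisms normalise the diagonal automorphisms -/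
theorem field_mul_diag (hB : Base D F) (σ : F ≃+* F) (c : Fin D.rank → Fˣ) :
    (fieldEquiv hB σ : MulAut ↥(D.group F)) * diagOf hD c =
      diagOf hD (fun i => Units.map (σ : F →* F) (c i)) * fieldEquiv hB σ := by
  apply aut_ext hB (tabs2_of_mem hD).tab
  intro i t
  rw [MulAut.mul_apply, MulAut.mul_apply, MulAut.mul_apply, MulAut.mul_apply, diagOf_pos hD hB,
    diagOf_neg hD hB, fieldEquiv_xG, fieldEquiv_xG, fieldEquiv_xG, fieldEquiv_xG, diagOf_pos hD hB,
    diagOf_neg hD hB, map_mul, map_mul]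
  refine ⟨rfl, ?_⟩
  congr 2

/-- graph automorphisms normalise the diagonal automorphisms -/
theorem graph_mul_diag (hB : Base D F) (γ : MulAut ↥(D.group F)) (π : Equiv.Perm (Fin D.rank))
    (e : Fin D.rank → ℕ)
    (hγ : ∀ (i : Fin D.rank) (t : F), γ (xG hB (D.simple i) t) = xG hB (D.simple (π i)) (t ^ e i) ∧
      γ (xG hB (D.neg (D.simple i)) t) = xG hB (D.neg (D.simple (π i))) (t ^ e i))
    (c : Fin D.rank → Fˣ) :
    γ * diagOf hD c = diagOf hD (fun j => c (π.symm j) ^ e (π.symm j)) * γ := by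
  apply aut_ext hB (tabs2_of_mem hD).tab
  intro i t
  rw [MulAut.mul_apply, MulAut.mul_apply, MulAut.mul_apply, MulAut.mul_apply, diagOf_pos hD hB,
    diagOf_neg hD hB, (hγ i _).1, (hγ i _).2, (hγ i _).1, (hγ i _).2, diagOf_pos hD hB, diagOf_neg hD hB,
    Equiv.symm_apply_apply, mul_pow, mul_pow]
  constructor
  · congr 2
  · congr 2

variable [Finite F]

theorem diagOut_range_normal : (diagOut (F := F) hD).range.Normal := by
  have hB := base_of_mem F hD
  constructor
  rintro _ ⟨c, rfl⟩ o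
  obtain ⟨θ, rfl⟩ := QuotientGroup.mk'_surjective _ o
  obtain ⟨x, c₀, σ, γ, -, hγ, e⟩ := exists_decomp_mul hD hB θ
  have h1 := field_mul_diag hD hB σ c
  have h2 := graph_mul_diag hD hB γ _ _ hγ (fun i => Units.map (σ : F →* F) (c i))
  set c₁ : Fin D.rank → Fˣ := fun i => Units.map (σ : F →* F) (c i) with hc₁
  set c₂ : Fin D.rank → Fˣ := fun j => c₁ ((permOfAut hD θ).symm j) ^
    D.graphExp (ringChar F) ((permOfAut hD θ).symm j) (permOfAut hD θ ((permOfAut hD θ).symm j)) with hc₂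
  have h3 : θ * diagOf hD c * θ⁻¹ =
      MulAut.conj x * (diagOf hD c₀ * diagOf hD c₂ * (diagOf hD c₀)⁻¹) * (MulAut.conj x)⁻¹ := by
    have e1 : θ * diagOf hD c = MulAut.conj x * diagOf hD c₀ * diagOf hD c₂ * γ * fieldEquiv hB σ := by
      calc θ * diagOf hD c = MulAut.conj x * diagOf hD c₀ * γ * (fieldEquiv hB σ * diagOf hD c) := by
            rw [e]; group
        _ = MulAut.conj x * diagOf hD c₀ * (γ * diagOf hD c₁) * fieldEquiv hB σ := by rw [h1]; group
        _ = _ := by rw [h2]; group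
    rw [e1]
    conv_lhs => rw [e]
    group
  refine ⟨c₀ * c₂ * c₀⁻¹, ?_⟩
  show QuotientGroup.mk' (Cfsg.Inn ↥(D.group F)) (diagHom hD (c₀ * c₂ * c₀⁻¹)) =
    QuotientGroup.mk' _ θ * QuotientGroup.mk' _ (diagOf hD c) * (QuotientGroup.mk' _ θ)⁻¹
  have hq : QuotientGroup.mk' (Cfsg.Inn ↥(D.group F)) θ * QuotientGroup.mk' _ (diagOf hD c) *
      (QuotientGroup.mk' _ θ)⁻¹ = QuotientGroup.mk' _ (θ * diagOf hD c * θ⁻¹) := by
    rw [map_mul, map_mul, map_inv]
  have hY : diagHom hD (c₀ * c₂ * c₀⁻¹) = diagOf hD c₀ * diagOf hD c₂ * (diagOf hD c₀)⁻¹ := by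
    rw [map_mul, map_mul, map_inv]; rfl
  have hc1 : QuotientGroup.mk' (Cfsg.Inn ↥(D.group F)) (MulAut.conj x)⁻¹ = 1 := by
    rw [map_inv, mk_conj, inv_one]
  rw [hq, h3, hY, map_mul (QuotientGroup.mk' _) (MulAut.conj x * _), map_mul (QuotientGroup.mk' _) (MulAut.conj x),
    hc1, mk_conj, one_mul, mul_one]

theorem sup_eq_ker : (diagOut (F := F) hD).range ⊔ (fieldOut (F := F) hD).range = (permOut hD).ker := by
  apply le_antisymm
  · apply sup_le
    · rintro _ ⟨c, rfl⟩; exact permOut_diagOut hD c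
    · rintro _ ⟨σ, rfl⟩; exact permOut_fieldOut hD σ
  · intro o ho
    obtain ⟨c, σ, rfl⟩ := (mem_ker_permOut_iff hD o).mp ho
    exact mul_mem (Subgroup.mem_sup_left ⟨c, rfl⟩) (Subgroup.mem_sup_right ⟨σ, rfl⟩)

theorem fieldOut_range_isCyclic : IsCyclic ↥(fieldOut (F := F) hD).range := by
  have := Cfsg.Agent.Lib.Helper43.PA.isCyclic_ringAut (F := F)
  exact isCyclic_of_surjective (fieldOut (F := F) hD).rangeRestrict (fieldOut (F := F) hD).rangeRestrict_surjective

/-- the permutation attached to an automorphism permuting the fundamental root elements -/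
theorem permOfAut_of_list (hB : Base D F) (α : ↥(D.group F) ≃* ↥(D.group F)) (L : List ℕ)
    (π : Equiv.Perm (Fin D.rank)) (hπ : ∀ i, ((π i : Fin D.rank) : ℕ) = L.getD i 0)
    (hα : ∀ (g : ↥(D.group F)) (i : ℕ) (t : F), i < D.rank →
      (((g : GL D.Idx F) : Matrix D.Idx D.Idx F) = D.x F (D.simple i) t →
        ((α g : GL D.Idx F) : Matrix D.Idx D.Idx F) = D.x F (D.simple (L.getD i 0)) t) ∧
      (((g : GL D.Idx F) : Matrix D.Idx D.Idx F) = D.x F (D.neg (D.simple i)) t →
        ((α g : GL D.Idx F) : Matrix D.Idx D.Idx F) = D.x F (D.neg (D.simple (L.getD i 0))) t)) :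
    permOfAut hD α = π := by
  apply permOfAut_eq hD hB
  apply permRel_of_std
  intro i t
  refine ⟨⟨t, ?_⟩, ⟨t, ?_⟩⟩
  · apply Subtype.ext
    apply Units.ext
    rw [hπ]
    exact (hα (xG hB (D.simple i) t) i t i.2).1 rfl
  · apply Subtype.ext
    apply Units.ext
    rw [hπ]
    exact (hα (xG hB (D.neg (D.simple i)) t) i t i.2).2 rfl

end

/-! ### type `D₄` -/

def gtT : GTab := ⟨0xd86832150a0443017098482c10078241a0c0401c1c0b050180a04018000202, 0x1b00d80⟩

theorem bT : gbound (chevD4.rank + chevD4.nroots) gtT = true := by decide +kernel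
theorem iT : ginv fastD4 gtT gtT = true := by decide +kernel
theorem aT : gall chevD4 fastD4 gtT [2, 1, 0, 3] = true := by decide +kernel

def tauD4 : Equiv.Perm (Fin chevD4.rank) := Equiv.swap ⟨0, by decide⟩ ⟨2, by decide⟩

def rhoD4 : Equiv.Perm (Fin chevD4.rank) :=
  Equiv.swap ⟨0, by decide⟩ ⟨3, by decide⟩ * Equiv.swap ⟨0, by decide⟩ ⟨2, by decide⟩

theorem tauD4_apply : ∀ i : Fin chevD4.rank, ((tauD4 i : Fin chevD4.rank) : ℕ) = [2, 1, 0, 3].getD i 0 := by
  decide

theorem rhoD4_apply : ∀ i : Fin chevD4.rank, ((rhoD4 i : Fin chevD4.rank) : ℕ) = [2, 1, 3, 0].getD i 0 := by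
  decide

theorem tauD4_sq : tauD4 ^ 2 = 1 := by decide
theorem tauD4_ne : tauD4 ≠ 1 := by decide
theorem rhoD4_cube : rhoD4 ^ 3 = 1 := by decide
theorem rhoD4_ne : rhoD4 ≠ 1 := by decide
theorem comm_D4_ne : ⁅tauD4, rhoD4⁆ ≠ 1 := by decide

theorem hD4 : chevD4 ∈ [chevG2, chevB2, chevD4, chevF4, chevE6, chevE7, chevE8] := by simp

theorem tauD4_mem [Finite F] : tauD4 ∈ (permOut (F := F) hD4).range := by
  have hB := base_of_mem F hD4
  obtain ⟨α, hα⟩ := exists_graph_aut_of_checks (F := F) hB (tab_of_mem hD4) agreeD4 gtT gtT [2, 1, 0, 3] bT bT iT aT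
    (by decide) (by decide)
  exact ⟨QuotientGroup.mk' _ α, permOfAut_of_list hD4 hB α _ _ tauD4_apply hα⟩

theorem rhoD4_mem [Finite F] : rhoD4 ∈ (permOut (F := F) hD4).range := by
  have hB := base_of_mem F hD4
  obtain ⟨α, hα⟩ := Cfsg.Agent.S1081.result (F := F) (chevD4, [2, 1, 3, 0]) (by simp)
  exact ⟨QuotientGroup.mk' _ α, permOfAut_of_list hD4 hB α _ _ rhoD4_apply hα⟩

theorem card_range_D4 [Finite F] : Nat.card (permOut (F := F) hD4).range = 6 := by
  have hle := card_range_permOut_le (F := F) hD4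
  rw [symListsD4] at hle
  have hpos : 0 < Nat.card (permOut (F := F) hD4).range := Nat.card_pos
  have h2 : 2 ∣ Nat.card (permOut (F := F) hD4).range := by
    have : orderOf (⟨tauD4, tauD4_mem⟩ : ↥(permOut (F := F) hD4).range) = 2 := by
      apply orderOf_eq_prime
      · exact Subtype.ext tauD4_sq
      · intro h; exact tauD4_ne (congrArg Subtype.val h)
    rw [← this]; exact orderOf_dvd_natCard _
  have h3 : 3 ∣ Nat.card (permOut (F := F) hD4).range := by
    have : orderOf (⟨rhoD4, rhoD4_mem⟩ : ↥(permOut (F := F) hD4).range) = 3 := by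
      apply orderOf_eq_prime
      · exact Subtype.ext rhoD4_cube
      · intro h; exact rhoD4_ne (congrArg Subtype.val h)
    rw [← this]; exact orderOf_dvd_natCard _
  omega

theorem not_commutator_le_D4 [Finite F] :
    ¬ commutator (Cfsg.Out ↥(chevD4.group F)) ≤ (permOut (F := F) hD4).ker := by
  intro h
  obtain ⟨a, ha⟩ := tauD4_mem (F := F)
  obtain ⟨b, hb⟩ := rhoD4_mem (F := F)
  have h1 : ⁅a, b⁆ ∈ commutator (Cfsg.Out ↥(chevD4.group F)) :=
    Subgroup.commutator_mem_commutator (Subgroup.mem_top a) (Subgroup.mem_top b)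
  have h2 : permOut hD4 ⁅a, b⁆ = 1 := h h1
  rw [map_commutatorElement, ha, hb] at h2
  exact comm_D4_ne h2

end Cfsg.Agent.Lib.Helper36
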