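import Mathlib

/-!
# Central extensions of simply laced Steinberg groups with enough room split (Milnor, Stein)
-/

set_option autoImplicit false

namespace Cfsg.Agent.Lib.Helper36

open scoped commutatorElement

section grp

variable {G : Type*} [Group G]

lemma comm_hw (u v w : G) (h1 : Commute u w) (h2 : Commute ⁅u, v⁆ ⁅v, w⁆)
    (h3 : Commute ⁅v, w⁆ ⁅⁅u, v⁆, w⁆) : ⁅u, ⁅v, w⁆⁆ = ⁅⁅u, v⁆, w⁆ := by
  have hc : u⁻¹ * w * u = w := by rw [mul_assoc, ← h1.eq, inv_mul_cancel_left]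
  have hc' : u⁻¹ * w⁻¹ = w⁻¹ * u⁻¹ := (h1.inv_inv).eq
  have e1 : u * ⁅v, w⁆ * u⁻¹ = ⁅u, v⁆ * ⁅v, w⁆ * (w * ⁅u, v⁆⁻¹ * w⁻¹) := by
    have r1 : ⁅u, v⁆ * ⁅v, w⁆ * (w * ⁅u, v⁆⁻¹ * w⁻¹) = u * v * (u⁻¹ * w * u) * v⁻¹ * (u⁻¹ * w⁻¹) := by
      simp only [commutatorElement_def]; group
    rw [r1, hc, hc']
    simp only [commutatorElement_def]; group
  have e2 : w * ⁅u, v⁆⁻¹ * w⁻¹ = ⁅u, v⁆⁻¹ * ⁅⁅u, v⁆, w⁆ := by
    generalize ⁅u, v⁆ = p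
    simp only [commutatorElement_def]; group
  have e3 : u * ⁅v, w⁆ * u⁻¹ = ⁅v, w⁆ * ⁅⁅u, v⁆, w⁆ := by
    rw [e1, e2, h2.eq]; group
  calc ⁅u, ⁅v, w⁆⁆ = (u * ⁅v, w⁆ * u⁻¹) * ⁅v, w⁆⁻¹ := by rw [commutatorElement_def]
    _ = ⁅v, w⁆ * ⁅⁅u, v⁆, w⁆ * ⁅v, w⁆⁻¹ := by rw [e3]
    _ = ⁅⁅u, v⁆, w⁆ := by rw [h3.eq]; group

lemma comm_mul_right (v w w' : G) (h : Commute w ⁅v, w'⁆) : ⁅v, w * w'⁆ = ⁅v, w⁆ * ⁅v, w'⁆ := by
  have : ⁅v, w * w'⁆ = ⁅v, w⁆ * (w * ⁅v, w'⁆ * w⁻¹) := by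
    simp only [commutatorElement_def]; group
  rw [this, h.eq, mul_inv_cancel_right]

end grp

section ext

variable {E Δ : Type*} [Group E] [Group Δ] (π : E →* Δ) (hc : π.ker ≤ Subgroup.center E)
include hc

lemma comm_congr {e e' f f' : E} (h1 : π e = π e') (h2 : π f = π f') : ⁅e, f⁆ = ⁅e', f'⁆ := by
  have hz : e⁻¹ * e' ∈ Subgroup.center E := hc (by rw [MonoidHom.mem_ker, map_mul, map_inv, h1, inv_mul_cancel])
  have hw : f⁻¹ * f' ∈ Subgroup.center E := hc (by rw [MonoidHom.mem_ker, map_mul, map_inv, h2, inv_mul_cancel])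
  rw [Subgroup.mem_center_iff] at hz hw
  set z := e⁻¹ * e' with hzd
  set w := f⁻¹ * f' with hwd
  have he : e' = e * z := by rw [hzd]; group
  have hf : f' = f * w := by rw [hwd]; group
  rw [he, hf]
  have a1 : z * f = f * z := (hz f).symm
  have a2 : w * z⁻¹ = z⁻¹ * w := (hw z⁻¹).symm
  have a3 : w * e⁻¹ = e⁻¹ * w := (hw e⁻¹).symm
  calc ⁅e, f⁆ = e * f * e⁻¹ * f⁻¹ := commutatorElement_def _ _
    _ = e * (f * z) * z⁻¹ * (e⁻¹ * w) * w⁻¹ * f⁻¹ := by group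
    _ = e * (z * f) * z⁻¹ * (w * e⁻¹) * w⁻¹ * f⁻¹ := by rw [a1, a3]
    _ = e * z * f * (z⁻¹ * w) * e⁻¹ * w⁻¹ * f⁻¹ := by group
    _ = e * z * f * (w * z⁻¹) * e⁻¹ * w⁻¹ * f⁻¹ := by rw [a2]
    _ = ⁅e * z, f * w⁆ := by rw [commutatorElement_def]; group

lemma commute_congr {e e' f f' : E} (h1 : π e = π e') (h2 : π f = π f') (h : Commute e f) : Commute e' f' := by
  rw [← commutatorElement_eq_one_iff_commute] at h ⊢
  rw [← comm_congr π hc h1 h2, h]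

/-- if the images of `e` and of `v`, `w` commute then `e` commutes with `⁅v, w⁆`. -/
lemma commute_comm {e v w : E} (h1 : Commute (π e) (π v)) (h2 : Commute (π e) (π w)) : Commute e ⁅v, w⁆ := by
  have e1 : e * ⁅v, w⁆ * e⁻¹ = ⁅e * v * e⁻¹, e * w * e⁻¹⁆ := by
    simp only [commutatorElement_def]; group
  have e2 : ⁅e * v * e⁻¹, e * w * e⁻¹⁆ = ⁅v, w⁆ := by
    apply comm_congr π hc
    · rw [map_mul, map_mul, map_inv, h1.eq, mul_inv_cancel_right]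
    · rw [map_mul, map_mul, map_inv, h2.eq, mul_inv_cancel_right]
  show e * ⁅v, w⁆ = ⁅v, w⁆ * e
  have e3 : e * ⁅v, w⁆ * e⁻¹ = ⁅v, w⁆ := e1.trans e2
  exact mul_inv_eq_iff_eq_mul.mp e3

end ext

end Cfsg.Agent.Lib.Helper36
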