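import Cfsg.Agent.Lib.Helper36.StClose1

/-!
# Central extensions of simply laced Steinberg groups with enough room split: the lifting theorem
-/

set_option autoImplicit false

namespace Cfsg.Agent.Lib.Helper36

open scoped commutatorElement

/-- combinatorial data of a simply laced root system: `cm` commuting pairs, `sm` sums (`≥ n` if there is none),
`ε` the structure constants, `(da r, db r)` a distinguished decomposition of `r`. -/
structure SLData (K : Type*) where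
  n : ℕ
  cm : ℕ → ℕ → Prop
  sm : ℕ → ℕ → ℕ
  ε : ℕ → ℕ → K
  da : ℕ → ℕ
  db : ℕ → ℕ

namespace SLData

variable {K : Type*} [Field K] (A : SLData K)

/-- a chain `a', d, b` of type `A₃`. -/
def Chain (a' d b : ℕ) : Prop :=
  a' < A.n ∧ d < A.n ∧ b < A.n ∧ A.sm a' d < A.n ∧ A.sm d b < A.n ∧ A.sm (A.sm a' d) b < A.n ∧
  A.sm a' (A.sm d b) = A.sm (A.sm a' d) b ∧ A.cm a' b ∧ A.cm (A.sm a' d) (A.sm d b) ∧
  A.cm (A.sm d b) (A.sm (A.sm a' d) b)

/-- there is enough room. -/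
structure Room : Prop where
  eps : ∀ a b, A.ε a b = 1 ∨ A.ε a b = -1
  h0 : ∀ r, r < A.n → ∃ a b, a < A.n ∧ b < A.n ∧ A.sm a b = r
  h1 : ∀ r s, r < A.n → s < A.n → A.cm r s → ∃ a b, a < A.n ∧ b < A.n ∧ A.sm a b = s ∧ A.cm r a ∧ A.cm r b
  h2 : ∀ a b, a < A.n → b < A.n → A.sm a b < A.n → A.cm b (A.sm a b)
  h3 : ∀ a b, a < A.n → b < A.n → A.sm a b < A.n → ∃ a' d, A.Chain a' d b ∧ A.sm a' d = a
  h5 : ∀ a b, a < A.n → b < A.n → A.sm a b < A.n →
    A.da (A.sm a b) < A.n ∧ A.db (A.sm a b) < A.n ∧ A.sm (A.da (A.sm a b)) (A.db (A.sm a b)) = A.sm a b ∧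
    ((a = A.da (A.sm a b) ∧ b = A.db (A.sm a b)) ∨ (a = A.db (A.sm a b) ∧ b = A.da (A.sm a b)) ∨
      (∃ d, A.Chain (A.da (A.sm a b)) d b ∧ A.sm (A.da (A.sm a b)) d = a ∧ A.sm d b = A.db (A.sm a b)) ∨
      (∃ d, A.Chain (A.db (A.sm a b)) d b ∧ A.sm (A.db (A.sm a b)) d = a ∧ A.sm d b = A.da (A.sm a b)))

/-- elements satisfying the Steinberg relations. -/
structure Rep {Γ : Type*} [Group Γ] (X : ℕ → K → Γ) : Prop where
  add : ∀ r, r < A.n → ∀ t u, X r t * X r u = X r (t + u)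
  comm : ∀ r s, r < A.n → s < A.n → A.cm r s → ∀ t u, Commute (X r t) (X s u)
  sum : ∀ r s, r < A.n → s < A.n → A.sm r s < A.n → ∀ t u, ⁅X r t, X s u⁆ = X (A.sm r s) (A.ε r s * t * u)

variable {A}

lemma Room.eps_sq (hA : A.Room) (a b : ℕ) : A.ε a b * A.ε a b = 1 := by
  rcases hA.eps a b with h | h <;> rw [h] <;> ring

section lift

variable (hA : A.Room) {E Δ : Type*} [Group E] [Group Δ] (π : E →* Δ) (hπ : Function.Surjective π)
  (hc : π.ker ≤ Subgroup.center E) {X : ℕ → K → Δ} (hX : A.Rep X)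
  (hinj : ∀ r, r < A.n → ∀ t u, X r t = X r u → t = u)

/-- the commutator of lifts. -/
noncomputable def Fc (X : ℕ → K → Δ) (a b : ℕ) (t u : K) : E :=
  ⁅Function.surjInv hπ (X a t), Function.surjInv hπ (X b u)⁆

include hc in
lemma Fc_eq {a b : ℕ} {t u : K} {e f : E} (he : π e = X a t) (hf : π f = X b u) : ⁅e, f⁆ = Fc π hπ X a b t u :=
  comm_congr π hc (he.trans (Function.surjInv_eq hπ _).symm) (hf.trans (Function.surjInv_eq hπ _).symm)

include hX in
lemma π_Fc {a b : ℕ} (ha : a < A.n) (hb : b < A.n) (hs : A.sm a b < A.n) (t u : K) :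
    π (Fc π hπ X a b t u) = X (A.sm a b) (A.ε a b * t * u) := by
  unfold Fc
  rw [map_commutatorElement, Function.surjInv_eq hπ, Function.surjInv_eq hπ, hX.sum a b ha hb hs]

include hA hπ hc hX in
lemma commute_lifts {r s : ℕ} (hr : r < A.n) (hs : s < A.n) (h : A.cm r s) {t u : K} {e f : E}
    (he : π e = X r t) (hf : π f = X s u) : Commute e f := by
  obtain ⟨a, b, ha, hb, hab, h1, h2⟩ := hA.h1 r s hr hs h
  have hcomm := commute_comm π hc (e := e) (v := Function.surjInv hπ (X a 1))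
    (w := Function.surjInv hπ (X b (A.ε a b * u)))
    (by rw [he, Function.surjInv_eq hπ]; exact hX.comm r a hr ha h1 _ _)
    (by rw [he, Function.surjInv_eq hπ]; exact hX.comm r b hr hb h2 _ _)
  have hp : π ⁅Function.surjInv hπ (X a 1), Function.surjInv hπ (X b (A.ε a b * u))⁆ = X s u := by
    have := π_Fc π hπ hX ha hb (hab ▸ hs) 1 (A.ε a b * u)
    rw [hab] at this
    rw [show A.ε a b * 1 * (A.ε a b * u) = u by linear_combination u * hA.eps_sq a b] at this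
    exact this
  exact commute_congr π hc rfl (hp.trans hf.symm) hcomm

include hA hc hX in
lemma Fc_add {a b : ℕ} (ha : a < A.n) (hb : b < A.n) (hs : A.sm a b < A.n) (t u u' : K) :
    Fc π hπ X a b t (u + u') = Fc π hπ X a b t u * Fc π hπ X a b t u' := by
  have h1 := comm_mul_right (Function.surjInv hπ (X a t)) (Function.surjInv hπ (X b u))
    (Function.surjInv hπ (X b u'))
    (commute_lifts hA π hπ hc hX hb hs (hA.h2 a b ha hb hs) (Function.surjInv_eq hπ _)
      (π_Fc π hπ hX ha hb hs t u'))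
  rw [Fc_eq π hπ hc (a := a) (b := b) (t := t) (u := u + u') (Function.surjInv_eq hπ _)
    (by rw [map_mul, Function.surjInv_eq hπ, Function.surjInv_eq hπ, hX.add b hb])] at h1
  exact h1

include hA hc hX in
lemma Fc_chain {a' d b : ℕ} (h : A.Chain a' d b) (l m v : K) :
    Fc π hπ X a' (A.sm d b) l (A.ε d b * m * v) = Fc π hπ X (A.sm a' d) b (A.ε a' d * l * m) v := by
  obtain ⟨ha', hd, hb, h1, h2, h3, h4, c1, c2, c3⟩ := h
  have p1 := π_Fc π hπ hX ha' hd h1 l m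
  have p2 := π_Fc π hπ hX hd hb h2 m v
  have p3 : π ⁅Fc π hπ X a' d l m, Function.surjInv hπ (X b v)⁆ =
      X (A.sm (A.sm a' d) b) (A.ε (A.sm a' d) b * (A.ε a' d * l * m) * v) := by
    rw [map_commutatorElement, p1, Function.surjInv_eq hπ, hX.sum _ _ h1 hb h3]
  have key := comm_hw (Function.surjInv hπ (X a' l)) (Function.surjInv hπ (X d m))
    (Function.surjInv hπ (X b v))
    (commute_lifts hA π hπ hc hX ha' hb c1 (Function.surjInv_eq hπ _) (Function.surjInv_eq hπ _))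
    (commute_lifts hA π hπ hc hX h1 h2 c2 p1 p2)
    (commute_lifts hA π hπ hc hX h2 h3 c3 p2 p3)
  have key' : ⁅Function.surjInv hπ (X a' l), Fc π hπ X d b m v⁆ =
      ⁅Fc π hπ X a' d l m, Function.surjInv hπ (X b v)⁆ := key
  rw [Fc_eq π hπ hc (Function.surjInv_eq hπ _) p2, Fc_eq π hπ hc p1 (Function.surjInv_eq hπ _)] at key'
  exact key'

include hA hc hX in
lemma Fc_prod {a b : ℕ} (ha : a < A.n) (hb : b < A.n) (hs : A.sm a b < A.n) (m v : K) :
    Fc π hπ X a b m v = Fc π hπ X a b 1 (m * v) := by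
  obtain ⟨a', d, hch, rfl⟩ := hA.h3 a b ha hb hs
  have k1 := Fc_chain hA π hπ hc hX hch 1 (A.ε a' d * m) v
  have k2 := Fc_chain hA π hπ hc hX hch 1 (A.ε a' d) (m * v)
  rw [show A.ε a' d * 1 * (A.ε a' d * m) = m by linear_combination m * hA.eps_sq a' d] at k1
  rw [show A.ε a' d * 1 * A.ε a' d = 1 by linear_combination hA.eps_sq a' d,
    show A.ε d b * A.ε a' d * (m * v) = A.ε d b * (A.ε a' d * m) * v by ring] at k2
  rw [← k1, k2]

/-- the canonical lift attached to a decomposition. -/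
noncomputable def Gc (A : SLData K) (X : ℕ → K → Δ) (a b : ℕ) (t : K) : E := Fc π hπ X a b 1 (A.ε a b * t)

include hA hc hX in
lemma Fc_eq_Gc {a b : ℕ} (ha : a < A.n) (hb : b < A.n) (hs : A.sm a b < A.n) (m v : K) :
    Fc π hπ X a b m v = Gc π hπ A X a b (A.ε a b * m * v) := by
  unfold Gc
  rw [Fc_prod hA π hπ hc hX ha hb hs,
    show A.ε a b * (A.ε a b * m * v) = m * v by linear_combination (m * v) * hA.eps_sq a b]

include hA hX in
lemma π_Gc {a b : ℕ} (ha : a < A.n) (hb : b < A.n) (hs : A.sm a b < A.n) (t : K) :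
    π (Gc π hπ A X a b t) = X (A.sm a b) t := by
  unfold Gc
  rw [π_Fc π hπ hX ha hb hs,
    show A.ε a b * 1 * (A.ε a b * t) = t by linear_combination t * hA.eps_sq a b]

include hA hc hX in
lemma Gc_add {a b : ℕ} (ha : a < A.n) (hb : b < A.n) (hs : A.sm a b < A.n) (t u : K) :
    Gc π hπ A X a b t * Gc π hπ A X a b u = Gc π hπ A X a b (t + u) := by
  unfold Gc
  rw [mul_add, Fc_add hA π hπ hc hX ha hb hs]

include hA hc hX hinj in
lemma Gc_chain {a' d b : ℕ} (h : A.Chain a' d b) (t : K) :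
    Gc π hπ A X a' (A.sm d b) t = Gc π hπ A X (A.sm a' d) b t := by
  have h' := h
  obtain ⟨ha', hd, hb, h1, h2, h3, h4, c1, c2, c3⟩ := h'
  have h3' : A.sm a' (A.sm d b) < A.n := h4 ▸ h3
  have key : ∀ v : K, Gc π hπ A X a' (A.sm d b) (A.ε a' (A.sm d b) * A.ε d b * v) =
      Gc π hπ A X (A.sm a' d) b (A.ε (A.sm a' d) b * A.ε a' d * v) := by
    intro v
    have k := Fc_chain hA π hπ hc hX h 1 1 v
    rw [Fc_eq_Gc hA π hπ hc hX ha' h2 h3', Fc_eq_Gc hA π hπ hc hX h1 hb h3] at k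
    rw [show A.ε a' (A.sm d b) * A.ε d b * v = A.ε a' (A.sm d b) * 1 * (A.ε d b * 1 * v) by ring,
      show A.ε (A.sm a' d) b * A.ε a' d * v = A.ε (A.sm a' d) b * (A.ε a' d * 1 * 1) * v by ring]
    exact k
  have hk : A.ε a' (A.sm d b) * A.ε d b = A.ε (A.sm a' d) b * A.ε a' d := by
    have k1 := congrArg π (key 1)
    rw [π_Gc hA π hπ hX ha' h2 h3', π_Gc hA π hπ hX h1 hb h3, h4] at k1
    have := hinj _ h3 _ _ k1
    simpa using this
  have k2 := key (A.ε a' (A.sm d b) * A.ε d b * t)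
  rw [show A.ε a' (A.sm d b) * A.ε d b * (A.ε a' (A.sm d b) * A.ε d b * t) = t by
      linear_combination (t * A.ε d b * A.ε d b) * hA.eps_sq a' (A.sm d b) + t * hA.eps_sq d b] at k2
  rw [hk, show A.ε (A.sm a' d) b * A.ε a' d * (A.ε (A.sm a' d) b * A.ε a' d * t) = t by
      linear_combination (t * A.ε a' d * A.ε a' d) * hA.eps_sq (A.sm a' d) b + t * hA.eps_sq a' d] at k2
  exact k2

include hA hc hX hinj in
lemma Gc_swap {a b : ℕ} (ha : a < A.n) (hb : b < A.n) (hs : A.sm a b < A.n) (hs' : A.sm b a = A.sm a b)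
    (t : K) : Gc π hπ A X b a t = Gc π hπ A X a b t := by
  have hs2 : A.sm b a < A.n := hs' ▸ hs
  have key : ∀ v : K, Gc π hπ A X b a v = (Gc π hπ A X a b (A.ε a b * A.ε b a * v))⁻¹ := by
    intro v
    have e1 : Gc π hπ A X b a v = (Fc π hπ X a b (A.ε b a * v) 1)⁻¹ := by
      unfold Gc Fc
      rw [commutatorElement_inv]
    rw [e1, Fc_eq_Gc hA π hπ hc hX ha hb hs]
    congr 2
    ring
  have h0 : Gc π hπ A X a b 0 = 1 := by
    have := Gc_add hA π hπ hc hX ha hb hs 0 0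
    rw [add_zero] at this
    exact mul_eq_left.mp this
  have hX0 : X (A.sm a b) 0 = 1 := by
    have := hX.add _ hs 0 0
    rw [add_zero] at this
    exact mul_eq_left.mp this
  have hk : A.ε a b * A.ε b a = -1 := by
    have k1 := congrArg π (key 1)
    rw [map_inv, π_Gc hA π hπ hX hb ha hs2, π_Gc hA π hπ hX ha hb hs, hs', eq_inv_iff_mul_eq_one,
      hX.add _ hs, ← hX0] at k1
    have := hinj _ hs _ _ k1
    linear_combination this
  rw [key t, hk, inv_eq_iff_mul_eq_one, Gc_add hA π hπ hc hX ha hb hs]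
  rw [show -1 * t + t = 0 by ring, h0]

include hA hc hX hinj in
/-- all decompositions give the same lift. -/
lemma Gc_eq {a b : ℕ} (ha : a < A.n) (hb : b < A.n) (hs : A.sm a b < A.n) (t : K) :
    Gc π hπ A X a b t = Gc π hπ A X (A.da (A.sm a b)) (A.db (A.sm a b)) t := by
  obtain ⟨h1, h2, h3, h4⟩ := hA.h5 a b ha hb hs
  rcases h4 with ⟨e1, e2⟩ | ⟨e1, e2⟩ | ⟨d, hch, e1, e2⟩ | ⟨d, hch, e1, e2⟩
  · rw [← e1, ← e2]
  · rw [← e1, ← e2]
    rw [← e1, ← e2] at h3
    exact (Gc_swap hA π hπ hc hX hinj ha hb hs h3 t).symm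
  · have := Gc_chain hA π hπ hc hX hinj hch t
    rw [e1, e2] at this
    exact this.symm
  · have := Gc_chain hA π hπ hc hX hinj hch t
    have h5 := hch.2.2.2.2.2.2.1
    rw [e1, e2] at this h5
    rw [← this]
    exact (Gc_swap hA π hπ hc hX hinj h1 h2 (by rw [h3]; exact hs) (h5.trans h3.symm) t)

include hA hπ hc hX hinj in
/-- the lifting theorem. -/
theorem exists_lift : ∃ Y : ℕ → K → E, A.Rep Y ∧ ∀ r, r < A.n → ∀ t, π (Y r t) = X r t := by
  have hd : ∀ r, r < A.n → A.da r < A.n ∧ A.db r < A.n ∧ A.sm (A.da r) (A.db r) = r := by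
    intro r hr
    obtain ⟨a, b, ha, hb, rfl⟩ := hA.h0 r hr
    obtain ⟨h1, h2, h3, -⟩ := hA.h5 a b ha hb hr
    exact ⟨h1, h2, h3⟩
  have hY : ∀ r, r < A.n → ∀ t, π (Gc π hπ A X (A.da r) (A.db r) t) = X r t := by
    intro r hr t
    obtain ⟨h1, h2, h3⟩ := hd r hr
    have := π_Gc hA π hπ hX h1 h2 (by rw [h3]; exact hr) t
    rw [h3] at this
    exact this
  refine ⟨fun r t => Gc π hπ A X (A.da r) (A.db r) t, ⟨?_, ?_, ?_⟩, hY⟩
  · intro r hr t u
    obtain ⟨h1, h2, h3⟩ := hd r hr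
    exact Gc_add hA π hπ hc hX h1 h2 (by rw [h3]; exact hr) t u
  · intro r s hr hs h t u
    exact commute_lifts hA π hπ hc hX hr hs h (hY r hr t) (hY s hs u)
  · intro r s hr hs h t u
    show ⁅Gc π hπ A X (A.da r) (A.db r) t, Gc π hπ A X (A.da s) (A.db s) u⁆ = _
    rw [Fc_eq π hπ hc (hY r hr t) (hY s hs u), Fc_eq_Gc hA π hπ hc hX hr hs h,
      Gc_eq hA π hπ hc hX hinj hr hs h]

end lift

end SLData

end Cfsg.Agent.Lib.Helper36
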