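import Cfsg.Agent.Lib.Helper36.StRoom
import Cfsg.Prelude.Def_SteinbergCover
import Cfsg.Prelude.Def_KGroupFacts

/-!
# Every central extension of a quotient of the Steinberg cover (with room) is covered by it;
the Schur multiplier from a universal perfect central extension
-/

set_option autoImplicit false

namespace Cfsg.Agent.Lib.Helper36

open Cfsg.Lie
open scoped commutatorElement

section cover

variable {D : ChevalleyDatum} {T : Fast} {K : Type*} [Field K]

theorem relAB_map {Γ Δ : Type*} [Group Γ] [Group Δ] {X : ℕ → K → Γ} (h : RelAB D K X) (f : Γ →* Δ) :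
    RelAB D K (fun r t => f (X r t)) where
  add := by
    intro r hr t u
    show f (X r t) * f (X r u) = f (X r (t + u))
    rw [← map_mul, h.add r hr]
  comm := by
    intro r s hr hs h1 h2 t u
    show f (X s u) * f (X r t) = f (X r t) * f (X s u) * _
    have := congrArg f (h.comm r s hr hs h1 h2 t u)
    rw [map_mul, map_mul, map_mul, map_list_prod, List.map_map] at this
    exact this

theorem mk_stWord' (rels : Set (FreeGroup (Fin D.nroots × K))) (w : List (ℕ × K)) :
    PresentedGroup.mk rels (D.stWord w) = (w.map fun p => PresentedGroup.mk rels (D.stX p.1 p.2)).prod := by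
  unfold ChevalleyDatum.stWord
  rw [map_list_prod, List.map_map]
  rfl

theorem relAB_scGen : RelAB D K (D.scGen K) where
  add := by
    intro r hr t u
    have h1 : D.stX r t * D.stX r u * (D.stX r (t + u))⁻¹ ∈ D.steinbergRelsAB K := Or.inl ⟨r, t, u, hr, rfl⟩
    have h2 := PresentedGroup.one_of_mem h1
    rw [map_mul, map_mul, map_inv] at h2
    exact mul_inv_eq_one.mp h2
  comm := by
    intro r s hr hs h1 h2 t u
    have h3 : (D.stX s u)⁻¹ * (D.stX r t)⁻¹ * D.stX s u * D.stX r t * (D.stWord (D.commWord K r s t u))⁻¹ ∈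
        D.steinbergRelsAB K := Or.inr ⟨r, s, t, u, hr, hs, h1, h2, rfl⟩
    have h4 := PresentedGroup.one_of_mem h3
    rw [map_mul, map_mul, map_mul, map_mul, map_inv, map_inv, map_inv, mk_stWord'] at h4
    have h5 := mul_inv_eq_one.mp h4
    show PresentedGroup.mk _ (D.stX s u) * PresentedGroup.mk _ (D.stX r t) =
      PresentedGroup.mk _ (D.stX r t) * PresentedGroup.mk _ (D.stX s u) *
        ((D.commWord K r s t u).map fun p => PresentedGroup.mk _ (D.stX p.1 p.2)).prod
    rw [← h5]
    group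

/-- a family satisfying (R1), (R2) defines a homomorphism from the cover. -/
theorem exists_hom_of_relAB {Γ : Type*} [Group Γ] {Y : ℕ → K → Γ} (h : RelAB D K Y)
    (h1 : ∀ r, ¬ r < D.nroots → ∀ t, Y r t = 1) :
    ∃ τ : D.SteinbergCover K →* Γ, ∀ r t, τ (D.scGen K r t) = Y r t := by
  have hX : ∀ r t, FreeGroup.lift (fun p : Fin D.nroots × K => Y p.1 p.2) (D.stX r t) = Y r t := by
    intro r t
    unfold ChevalleyDatum.stX
    split_ifs with hr
    · rw [FreeGroup.lift_apply_of]
    · rw [map_one, h1 r hr]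
  have hW : ∀ w : List (ℕ × K), FreeGroup.lift (fun p : Fin D.nroots × K => Y p.1 p.2) (D.stWord w) =
      (w.map fun p => Y p.1 p.2).prod := by
    intro w
    unfold ChevalleyDatum.stWord
    rw [map_list_prod, List.map_map]
    congr 1
    apply List.map_congr_left
    intro p _
    exact hX p.1 p.2
  have hrel : ∀ g ∈ D.steinbergRelsAB K, FreeGroup.lift (fun p : Fin D.nroots × K => Y p.1 p.2) g = 1 := by
    rintro g (⟨r, t₁, t₂, hr, rfl⟩ | ⟨r, s, t, u, hr, hs, h1, h2, rfl⟩)
    · rw [map_mul, map_mul, map_inv, hX, hX, hX, h.add r hr, mul_inv_cancel]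
    · rw [map_mul, map_mul, map_mul, map_mul, map_inv, map_inv, map_inv, hX, hX, hW]
      have := h.comm r s hr hs h1 h2 t u
      rw [mul_assoc ((Y s u)⁻¹ * (Y r t)⁻¹), this]
      group
  exact ⟨PresentedGroup.toGroup hrel, fun r t => hX r t⟩

theorem cover_hom_ext {Γ : Type*} [Group Γ] {f g : D.SteinbergCover K →* Γ}
    (h : ∀ r, r < D.nroots → ∀ t, f (D.scGen K r t) = g (D.scGen K r t)) : f = g := by
  apply PresentedGroup.ext
  rintro ⟨r, t⟩
  have := h r.1 r.2 t
  unfold ChevalleyDatum.scGen ChevalleyDatum.stX at this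
  rw [dif_pos r.2] at this
  exact this

/-- the cover maps to every central extension of any of its quotients in which the root subgroups stay faithful. -/
theorem exists_cover_lift (hA : Agree D T) {dT : ℕ} (hroom : (slOf K T dT).Room)
    (hsl : ∀ r < T.n, ∀ s < T.n, slb T r s = true) {G Γ : Type*} [Group G] [Group Γ]
    (θ : D.SteinbergCover K →* G)
    (hinj : ∀ r, r < D.nroots → ∀ t u, θ (D.scGen K r t) = θ (D.scGen K r u) → t = u)
    (σ : Γ →* G) (hσ : Function.Surjective σ) (hc : σ.ker ≤ Subgroup.center Γ) :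
    ∃ τ : D.SteinbergCover K →* Γ, σ.comp τ = θ := by
  have hX : (slOf K T dT).Rep (fun r t => θ (D.scGen K r t)) := rep_of_relAB dT hA hsl (relAB_map relAB_scGen θ)
  obtain ⟨Y, hY, hYX⟩ := SLData.exists_lift hroom σ hσ hc hX (fun r hr => hinj r (hA.hn ▸ hr))
  have hY' : (slOf K T dT).Rep (fun r t => if r < T.n then Y r t else 1) := by
    refine ⟨?_, ?_, ?_⟩
    · intro r hr t u
      have hr' : r < T.n := hr
      simp only [if_pos hr']
      exact hY.add r hr t u
    · intro r s hr hs h t u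
      have hr' : r < T.n := hr
      have hs' : s < T.n := hs
      simp only [if_pos hr', if_pos hs']
      exact hY.comm r s hr hs h t u
    · intro r s hr hs h t u
      have hr' : r < T.n := hr
      have hs' : s < T.n := hs
      have h' : (slOf K T dT).sm r s < T.n := h
      simp only [if_pos hr', if_pos hs', if_pos h']
      exact hY.sum r s hr hs h t u
  obtain ⟨τ, hτ⟩ := exists_hom_of_relAB (relAB_of_rep dT hA hsl hY')
    (fun r hr t => if_neg (by rw [hA.hn]; exact hr))
  refine ⟨τ, cover_hom_ext ?_⟩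
  intro r hr t
  have hr' : r < T.n := hA.hn ▸ hr
  rw [MonoidHom.comp_apply, hτ, if_pos hr']
  exact hYX r hr' t

end cover

section schur

universe u v

/-- a finite perfect central extension which covers all central extensions computes the Schur multiplier. -/
theorem hasSchur_of_universal {G : Type u} [Group G] [Finite G] {C : Type u} [Group C] (θ : C →* G)
    (hθ : Function.Surjective θ) (hker : θ.ker ≤ Subgroup.center C) (hperf : commutator C = ⊤)
    (huniv : ∀ (Γ : Type u) [Group Γ] (σ : Γ →* G), Function.Surjective σ → σ.ker ≤ Subgroup.center Γ →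
      ∃ τ : C →* Γ, σ.comp τ = θ)
    {A : Type v} [CommGroup A] [Finite A] (e : θ.ker ≃* A) : Cfsg.HasSchurMultiplier G A := by
  have hfin : Finite C := by
    have : Finite θ.ker := Finite.of_equiv A e.symm.toEquiv
    have : Finite (C ⧸ θ.ker) := Finite.of_equiv θ.range (QuotientGroup.quotientKerEquivRange θ).symm.toEquiv
    exact Finite.of_equiv _ (Subgroup.groupEquivQuotientProdSubgroup (s := θ.ker)).symm
  refine ⟨⟨C, inferInstance, hfin, θ, ⟨hθ, hker, hperf ▸ le_top⟩, ⟨e⟩⟩, ?_⟩
  intro Γ _ _ σ hσ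
  obtain ⟨hs, hc, hd⟩ := hσ
  obtain ⟨τ, hτ⟩ := huniv Γ σ hs hc
  have hτ' : ∀ c, σ (τ c) = θ c := fun c => DFunLike.congr_fun hτ c
  -- every element is `τ c * z`
  have hdec : ∀ g : Γ, ∃ c : C, ∃ z ∈ σ.ker, g = τ c * z := by
    intro g
    obtain ⟨c, hc'⟩ := hθ (σ g)
    refine ⟨c, (τ c)⁻¹ * g, ?_, by group⟩
    rw [MonoidHom.mem_ker, map_mul, map_inv, hτ', hc', inv_mul_cancel]
  have hcomm : commutator Γ ≤ τ.range := by
    rw [commutator_def, Subgroup.commutator_le]
    intro g _ g' _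
    obtain ⟨c, z, hz, rfl⟩ := hdec g
    obtain ⟨c', z', hz', rfl⟩ := hdec g'
    have hzc := Subgroup.mem_center_iff.mp (hc hz)
    have hzc' := Subgroup.mem_center_iff.mp (hc hz')
    refine ⟨⁅c, c'⁆, ?_⟩
    rw [map_commutatorElement, commutatorElement_def, commutatorElement_def]
    have e1 : τ c * z * (τ c' * z') * (τ c * z)⁻¹ * (τ c' * z')⁻¹ =
        τ c * (z * τ c') * (z' * z⁻¹) * (τ c)⁻¹ * z'⁻¹ * (τ c')⁻¹ := by group
    rw [e1, ← hzc (τ c')]
    have e2 : τ c * (τ c' * z) * (z' * z⁻¹) * (τ c)⁻¹ * z'⁻¹ * (τ c')⁻¹ =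
        τ c * τ c' * (z * z') * (z⁻¹ * (τ c)⁻¹ * z'⁻¹) * (τ c')⁻¹ := by group
    rw [e2, ← hzc z']
    have e3 : τ c * τ c' * (z' * z) * (z⁻¹ * (τ c)⁻¹ * z'⁻¹) * (τ c')⁻¹ =
        τ c * τ c' * (z' * (τ c)⁻¹) * z'⁻¹ * (τ c')⁻¹ := by group
    rw [e3, ← hzc' (τ c)⁻¹]
    group
  have hmem : ∀ c : θ.ker, τ c ∈ σ.ker := by
    intro c
    rw [MonoidHom.mem_ker, hτ']
    exact c.2
  let ρ : θ.ker →* σ.ker := (τ.comp θ.ker.subtype).codRestrict σ.ker hmem
  refine ⟨ρ.comp e.symm.toMonoidHom, ?_⟩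
  have hρ : Function.Surjective ρ := by
    rintro ⟨z, hz⟩
    obtain ⟨c, rfl⟩ := hcomm (hd hz)
    refine ⟨⟨c, ?_⟩, Subtype.ext rfl⟩
    rw [MonoidHom.mem_ker, ← hτ']
    exact hz
  exact hρ.comp e.symm.surjective

end schur

end Cfsg.Agent.Lib.Helper36
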