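import Cfsg.Agent.Lib.Helper36.StClose2
import Cfsg.Agent.Lib.Helper36.ChevComm

/-!
# The combinatorial data of a simply laced type read off the packed tables; Boolean checks for `Room`
-/

set_option autoImplicit false

namespace Cfsg.Agent.Lib.Helper36

open Cfsg.Lie
open scoped commutatorElement

/-- code of the sum `a + b` (index plus one, `0` if it is not a root) -/
noncomputable def sq (T : Fast) (a b : ℕ) : ℕ := Nat.land (T.raw b (Nat.add T.l a)) 511

noncomputable def smT (T : Fast) (a b : ℕ) : ℕ := Nat.rec T.n (fun k _ => k) (sq T a b)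

noncomputable def sgT (T : Fast) (a b : ℕ) : ℕ := Nat.land (Nat.shiftRight (T.raw b (Nat.add T.l a)) 9) 7

noncomputable def cmb (T : Fast) (r s : ℕ) : Bool :=
  Nat.beq s r || (!(Nat.beq s (T.neg r)) && Nat.beq (sq T r s) 0 && Nat.beq (sq T s r) 0)

noncomputable def byteAt (w i : ℕ) : ℕ := Nat.land (Nat.shiftRight w (Nat.mul 8 i)) 255

noncomputable def ltb (a n : ℕ) : Bool := Nat.ble (Nat.succ a) n

theorem ltb_iff (a n : ℕ) : ltb a n = true ↔ a < n := by
  unfold ltb
  rw [Nat.ble_eq]
  exact Nat.succ_le_iff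

theorem nbeq_iff (a b : ℕ) : Nat.beq a b = true ↔ a = b := by rw [Nat.beq_eq]

/-- the data of the type with table `T`; `dT` is the table of distinguished decompositions -/
noncomputable def slOf (K : Type*) [Field K] (T : Fast) (dT : ℕ) : SLData K where
  n := T.n
  cm r s := cmb T r s = true
  sm := smT T
  ε a b := if sgT T a b = 2 then -1 else 1
  da r := byteAt dT (Nat.mul 2 r)
  db r := byteAt dT (Nat.add (Nat.mul 2 r) 1)

theorem smT_zero {T : Fast} {a b : ℕ} (h : sq T a b = 0) : smT T a b = T.n := by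
  unfold smT; rw [h]; rfl

theorem smT_pos {T : Fast} {a b : ℕ} (h : sq T a b ≠ 0) : smT T a b = Nat.sub (sq T a b) 1 := by
  unfold smT
  obtain ⟨k, hk⟩ := Nat.exists_eq_succ_of_ne_zero h
  rw [hk]; rfl

theorem sq_ne_of_lt {T : Fast} {a b : ℕ} (h : smT T a b < T.n) : sq T a b ≠ 0 := by
  intro h0
  rw [smT_zero h0] at h
  exact lt_irrefl _ h

/-- sanity of the table at a pair of roots -/
noncomputable def slb (T : Fast) (r s : ℕ) : Bool :=
  (Nat.beq (sq T r s) 0 && Nat.beq (sq T s r) 0) ||
  (!(Nat.beq (sq T r s) 0) && !(Nat.beq (sq T s r) 0) &&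
    Nat.beq (Nat.shiftRight (T.raw s (Nat.add T.l r)) 12) 0 && Nat.beq (Nat.shiftRight (T.raw r (Nat.add T.l s)) 12) 0 &&
    (Nat.beq (sgT T r s) 2 || Nat.beq (sgT T r s) 3) && !(Nat.beq r s) && !(Nat.beq r (T.neg s)) &&
    ltb (smT T r s) T.n)

theorem slb_spec {T : Fast} {r s : ℕ} (h : slb T r s = true) :
    (sq T r s = 0 ∧ sq T s r = 0) ∨ (sq T r s ≠ 0 ∧ sq T s r ≠ 0 ∧
      Nat.shiftRight (T.raw s (Nat.add T.l r)) 12 = 0 ∧ Nat.shiftRight (T.raw r (Nat.add T.l s)) 12 = 0 ∧
      (sgT T r s = 2 ∨ sgT T r s = 3) ∧ r ≠ s ∧ r ≠ T.neg s ∧ smT T r s < T.n) := by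
  unfold slb at h
  simp only [Bool.or_eq_true, Bool.and_eq_true, Bool.not_eq_true', nbeq_iff, ltb_iff,
    ← Bool.not_eq_true, and_assoc] at h
  exact h

theorem ent_nil (T : Fast) (r s : ℕ) (h : sq T s r = 0) : T.ent r s = [] := by
  unfold Fast.ent
  rw [show T.l + s = Nat.add T.l s from rfl, show (3 : ℕ) = 2 + 1 from rfl, decEnt_succ]
  have : Nat.land (T.raw r (Nat.add T.l s)) 511 = 0 := h
  rw [this]
  rfl

theorem ctT_nil (T : Fast) (r s : ℕ) (h1 : sq T r s = 0) (h2 : sq T s r = 0) : ctT T r s = [] :=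
  commTermsOf_nil _ _ _ (ent_nil T r s h2) (ent_nil T s r h1)

theorem ctT_single {T : Fast} {r s : ℕ} (h : slb T r s = true) (h0 : sq T r s ≠ 0) :
    ctT T s r = [(smT T r s, ival (sgT T r s), 1, 1)] := by
  rcases slb_spec h with ⟨h1, -⟩ | ⟨h1, h2, h3, h4, -⟩
  · exact absurd h1 h0
  · rw [smT_pos h0]
    exact commTermsOf_single _ _ _ _ _ (ent_single T s r h3 h0) (ent_length_le T r s h4)

/-- the relations (R1), (R2) for a family of elements -/
structure RelAB (D : ChevalleyDatum) (K : Type*) [Field K] {Γ : Type*} [Group Γ] (X : ℕ → K → Γ) : Prop where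
  add : ∀ r, r < D.nroots → ∀ t u : K, X r t * X r u = X r (t + u)
  comm : ∀ r s, r < D.nroots → s < D.nroots → s ≠ r → s ≠ D.neg r → ∀ t u : K,
    X s u * X r t = X r t * X s u * ((D.commWord K r s t u).map fun p => X p.1 p.2).prod

section trans

variable {D : ChevalleyDatum} {T : Fast} {K : Type*} [Field K] {Γ : Type*} [Group Γ] {X : ℕ → K → Γ} (dT : ℕ)

theorem neg_eq_T (hA : Agree D T) {r : ℕ} (hr : r < T.n) : D.neg r = T.neg r := (hA.neg_eq r hr).symm

theorem eps_eq {r s : ℕ} (h : sgT T r s = 2 ∨ sgT T r s = 3) :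
    (slOf K T dT).ε r s = -((ival (sgT T r s) : ℤ) : K) := by
  show (if sgT T r s = 2 then (-1 : K) else 1) = _
  rcases h with h | h <;> rw [h] <;> simp [ival]

theorem X_zero_of_add {n : ℕ} (h : ∀ r, r < n → ∀ t u : K, X r t * X r u = X r (t + u)) {r : ℕ} (hr : r < n) :
    X r 0 = 1 := by
  have := h r hr 0 0
  rw [add_zero] at this
  exact mul_eq_left.mp this

theorem X_inv_of_add {n : ℕ} (h : ∀ r, r < n → ∀ t u : K, X r t * X r u = X r (t + u)) {r : ℕ} (hr : r < n) (t : K) :
    (X r t)⁻¹ = X r (-t) := by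
  rw [inv_eq_iff_mul_eq_one, h r hr, add_neg_cancel, X_zero_of_add h hr]

theorem rep_of_relAB (hA : Agree D T) (hsl : ∀ r < T.n, ∀ s < T.n, slb T r s = true) (h : RelAB D K X) :
    (slOf K T dT).Rep X where
  add := fun r hr => h.add r (hA.hn ▸ hr)
  comm := by
    intro r s hr hs hc t u
    have hr' : r < T.n := hr
    have hs' : s < T.n := hs
    have hc' : cmb T r s = true := hc
    unfold cmb at hc'
    simp only [Bool.or_eq_true, Bool.and_eq_true, Bool.not_eq_true', nbeq_iff, ← Bool.not_eq_true, and_assoc] at hc'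
    rcases hc' with rfl | ⟨h1, h2, h3⟩
    · show X s t * X s u = X s u * X s t
      rw [h.add s (hA.hn ▸ hs'), h.add s (hA.hn ▸ hs'), add_comm]
    · by_cases hsr : s = r
      · subst hsr
        show X s t * X s u = X s u * X s t
        rw [h.add s (hA.hn ▸ hs'), h.add s (hA.hn ▸ hs'), add_comm]
      · have := h.comm r s (hA.hn ▸ hr') (hA.hn ▸ hs') hsr (by rw [neg_eq_T hA hr']; exact h1) t u
        unfold ChevalleyDatum.commWord at this
        rw [commTerms_eq_ctT hA r s hr' hs', ctT_nil T r s h2 h3] at this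
        have e : X r t * X s u = X s u * X r t := by simpa using this.symm
        exact e
  sum := by
    intro r s hr hs hq t u
    have hr' : r < T.n := hr
    have hs' : s < T.n := hs
    have hq' : smT T r s < T.n := hq
    have h0 := sq_ne_of_lt hq'
    rcases slb_spec (hsl r hr' s hs') with ⟨h1, -⟩ | ⟨-, -, -, -, h5, h6, h7, -⟩
    · exact absurd h1 h0
    · have := h.comm s r (hA.hn ▸ hs') (hA.hn ▸ hr') h6 (by rw [neg_eq_T hA hs']; exact h7) (-u) (-t)
      unfold ChevalleyDatum.commWord at this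
      rw [commTerms_eq_ctT hA s r hs' hr', ctT_single (hsl r hr' s hs') h0] at this
      simp only [List.map_cons, List.map_nil, List.prod_cons, List.prod_nil, mul_one, pow_one, neg_neg] at this
      rw [eps_eq dT h5]
      show ⁅X r t, X s u⁆ = X (smT T r s) _
      rw [show -((ival (sgT T r s) : ℤ) : K) * t * u = (ival (sgT T r s) : K) * u * -t by ring]
      rw [← X_inv_of_add h.add (hA.hn ▸ hr'), ← X_inv_of_add h.add (hA.hn ▸ hs')] at this
      rw [commutatorElement_def]
      have e2 : X (smT T r s) ((ival (sgT T r s) : K) * u * -t) = X r t * X s u * ((X r t)⁻¹ * (X s u)⁻¹) := by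
        rw [this]; group
      rw [e2]; group

theorem relAB_of_rep (hA : Agree D T) (hsl : ∀ r < T.n, ∀ s < T.n, slb T r s = true) (h : (slOf K T dT).Rep X) :
    RelAB D K X where
  add := fun r hr => h.add r (show r < T.n from hA.hn ▸ hr)
  comm := by
    intro r s hr hs h1 h2 t u
    have hr' : r < T.n := hA.hn ▸ hr
    have hs' : s < T.n := hA.hn ▸ hs
    unfold ChevalleyDatum.commWord
    rw [commTerms_eq_ctT hA r s hr' hs']
    rcases slb_spec (hsl s hs' r hr') with ⟨h3, h4⟩ | ⟨h3, -, -, -, h5, h6, h7, h8⟩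
    · rw [ctT_nil T r s h4 h3]
      have hc : cmb T r s = true := by
        unfold cmb
        simp only [Bool.or_eq_true, Bool.and_eq_true, Bool.not_eq_true', nbeq_iff, ← Bool.not_eq_true, and_assoc]
        exact Or.inr ⟨by rw [← neg_eq_T hA hr']; exact h2, h4, h3⟩
      have := h.comm r s hr' hs' hc t u
      simpa using this.symm.eq
    · rw [ctT_single (hsl s hs' r hr') h3]
      simp only [List.map_cons, List.map_nil, List.prod_cons, List.prod_nil, mul_one, pow_one]
      have := h.sum s r hs' hr' h8 (-u) (-t)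
      rw [eps_eq dT h5] at this
      have hadd : ∀ r, r < T.n → ∀ t u : K, X r t * X r u = X r (t + u) := h.add
      rw [← X_inv_of_add hadd hr', ← X_inv_of_add hadd hs', commutatorElement_def, inv_inv, inv_inv] at this
      have e : (slOf K T dT).sm s r = smT T s r := rfl
      rw [e, show -((ival (sgT T s r) : ℤ) : K) * -u * -t = (ival (sgT T s r) : K) * -t * u by ring] at this
      rw [← this]; group

end trans

/-! ### the checks -/

noncomputable def chainb (T : Fast) (a' d b : ℕ) : Bool :=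
  ltb a' T.n && ltb d T.n && ltb b T.n && ltb (smT T a' d) T.n && ltb (smT T d b) T.n &&
  ltb (smT T (smT T a' d) b) T.n && Nat.beq (smT T a' (smT T d b)) (smT T (smT T a' d) b) && cmb T a' b &&
  cmb T (smT T a' d) (smT T d b) && cmb T (smT T d b) (smT T (smT T a' d) b)

theorem chainb_spec {K : Type*} [Field K] {T : Fast} (dT : ℕ) {a' d b : ℕ} (h : chainb T a' d b = true) :
    (slOf K T dT).Chain a' d b := by
  unfold chainb at h
  simp only [Bool.and_eq_true, nbeq_iff, ltb_iff, and_assoc] at h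
  exact h

noncomputable def room1b (T : Fast) (r s a b : ℕ) : Bool :=
  ltb a T.n && ltb b T.n && Nat.beq (smT T a b) s && cmb T r a && cmb T r b

noncomputable def room1 (T : Fast) (w1 r s : ℕ) : Bool :=
  !(cmb T r s) || room1b T r s (byteAt w1 (Nat.add (Nat.mul r T.n) s))
    (smT T s (T.neg (byteAt w1 (Nat.add (Nat.mul r T.n) s))))

noncomputable def room3b (T : Fast) (a b a' d : ℕ) : Bool := chainb T a' d b && Nat.beq (smT T a' d) a

noncomputable def room3 (T : Fast) (w3 a b : ℕ) : Bool :=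
  room3b T a b (byteAt w3 (Nat.add (Nat.mul a T.n) b)) (smT T a (T.neg (byteAt w3 (Nat.add (Nat.mul a T.n) b))))

noncomputable def room5c (T : Fast) (a b x y d : ℕ) : Bool :=
  chainb T x d b && Nat.beq (smT T x d) a && Nat.beq (smT T d b) y

noncomputable def room5b (T : Fast) (a b x y : ℕ) : Bool :=
  ltb x T.n && ltb y T.n && Nat.beq (smT T x y) (smT T a b) &&
  ((Nat.beq a x && Nat.beq b y) || (Nat.beq a y && Nat.beq b x) || room5c T a b x y (smT T a (T.neg x)) ||
    room5c T a b y x (smT T a (T.neg y)))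

noncomputable def roomP (T : Fast) (dT w1 w3 r s : ℕ) : Bool :=
  slb T r s && room1 T w1 r s && (!(ltb (smT T r s) T.n) || (cmb T s (smT T r s) && room3 T w3 r s &&
    room5b T r s (byteAt dT (Nat.mul 2 (smT T r s))) (byteAt dT (Nat.add (Nat.mul 2 (smT T r s)) 1))))

noncomputable def room0 (T : Fast) (dT r : ℕ) : Bool :=
  ltb (byteAt dT (Nat.mul 2 r)) T.n && ltb (byteAt dT (Nat.add (Nat.mul 2 r) 1)) T.n &&
    Nat.beq (smT T (byteAt dT (Nat.mul 2 r)) (byteAt dT (Nat.add (Nat.mul 2 r) 1))) r

theorem slb_of_roomP {T : Fast} {dT w1 w3 : ℕ} (hP : ∀ r < T.n, ∀ s < T.n, roomP T dT w1 w3 r s = true) :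
    ∀ r < T.n, ∀ s < T.n, slb T r s = true := by
  intro r hr s hs
  have := hP r hr s hs
  unfold roomP at this
  simp only [Bool.and_eq_true] at this
  exact this.1.1

theorem room_of_checks (K : Type*) [Field K] {T : Fast} {dT w1 w3 : ℕ} (h0 : ∀ r < T.n, room0 T dT r = true)
    (hP : ∀ r < T.n, ∀ s < T.n, roomP T dT w1 w3 r s = true) : (slOf K T dT).Room where
  eps := by
    intro a b
    show (if sgT T a b = 2 then (-1 : K) else 1) = 1 ∨ (if sgT T a b = 2 then (-1 : K) else 1) = -1
    split_ifs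
    · exact Or.inr rfl
    · exact Or.inl rfl
  h0 := by
    intro r hr
    have := h0 r hr
    unfold room0 at this
    simp only [Bool.and_eq_true, nbeq_iff, ltb_iff, and_assoc] at this
    exact ⟨_, _, this⟩
  h1 := by
    intro r s hr hs hc
    have := hP r hr s hs
    unfold roomP room1 room1b at this
    simp only [Bool.and_eq_true, Bool.or_eq_true, Bool.not_eq_true', nbeq_iff, ltb_iff, and_assoc] at this
    rcases this.2.1 with h | h
    · have hc' : cmb T r s = true := hc
      rw [h] at hc'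
      exact absurd hc' (by decide)
    · exact ⟨_, _, h⟩
  h2 := by
    intro a b ha hb hs
    have := hP a ha b hb
    unfold roomP at this
    simp only [Bool.and_eq_true, Bool.or_eq_true, Bool.not_eq_true', ← Bool.not_eq_true, ltb_iff, and_assoc] at this
    rcases this.2.2 with h | h
    · exact absurd hs h
    · exact h.1
  h3 := by
    intro a b ha hb hs
    have := hP a ha b hb
    unfold roomP room3 room3b at this
    simp only [Bool.and_eq_true, Bool.or_eq_true, Bool.not_eq_true', ← Bool.not_eq_true, ltb_iff, nbeq_iff,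
      and_assoc] at this
    rcases this.2.2 with h | h
    · exact absurd hs h
    · exact ⟨_, _, chainb_spec dT h.2.1, h.2.2.1⟩
  h5 := by
    intro a b ha hb hs
    have := hP a ha b hb
    unfold roomP room5b room5c at this
    simp only [Bool.and_eq_true, Bool.or_eq_true, Bool.not_eq_true', ← Bool.not_eq_true, ltb_iff, nbeq_iff,
      and_assoc, or_assoc] at this
    rcases this.2.2 with h | h
    · exact absurd hs h
    · obtain ⟨-, -, h1, h2, h3, h4⟩ := h
      refine ⟨h1, h2, h3, ?_⟩
      rcases h4 with h | h | h | h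
      · exact Or.inl h
      · exact Or.inr (Or.inl h)
      · exact Or.inr (Or.inr (Or.inl ⟨_, chainb_spec dT h.1, h.2⟩))
      · exact Or.inr (Or.inr (Or.inr ⟨_, chainb_spec dT h.1, h.2⟩))

end Cfsg.Agent.Lib.Helper36
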