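import Cfsg.Agent.Lib.Helper36.StRoom
import Cfsg.Agent.Lib.Helper17.StPres3
import Cfsg.Agent.Lib.Helper18.ChevCardHData

/-!
# Subsystem embeddings: the Steinberg group of a simply laced subsystem maps to the big Chevalley group;
the order of the centre of the Steinberg groups of type `E₆`, `E₇` (via `E₆, E₇ ⊆ E₈`)
-/

set_option autoImplicit false

namespace Cfsg.Agent.Lib.Helper36

open Cfsg.Lie Cfsg.Agent.Lib.Helper18 Cfsg.Agent.Lib.Helper17
open scoped commutatorElement

namespace SLData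

variable {K : Type*} [Field K] {Γ : Type*} [Group Γ]

theorem Rep.sub {A A' : SLData K} {ι : ℕ → ℕ} (hlt : ∀ r, r < A.n → ι r < A'.n)
    (hcm : ∀ r s, r < A.n → s < A.n → A.cm r s → A'.cm (ι r) (ι s))
    (hsm : ∀ r s, r < A.n → s < A.n → A.sm r s < A.n →
      A'.sm (ι r) (ι s) = ι (A.sm r s) ∧ A'.ε (ι r) (ι s) = A.ε r s)
    {X' : ℕ → K → Γ} (h : A'.Rep X') : A.Rep (fun r t => X' (ι r) t) where
  add := fun r hr t u => h.add (ι r) (hlt r hr) t u
  comm := fun r s hr hs hc t u => h.comm (ι r) (ι s) (hlt r hr) (hlt s hs) (hcm r s hr hs hc) t u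
  sum := by
    intro r s hr hs hq t u
    obtain ⟨h1, h2⟩ := hsm r s hr hs hq
    have := h.sum (ι r) (ι s) (hlt r hr) (hlt s hs) (by rw [h1]; exact hlt _ hq) t u
    rw [h1, h2] at this
    exact this

theorem Rep.restrict {A : SLData K} {Y : ℕ → K → Γ} (hY : A.Rep Y) :
    A.Rep (fun r t => if r < A.n then Y r t else 1) := by
  refine ⟨?_, ?_, ?_⟩
  · intro r hr t u
    simp only [if_pos hr]
    exact hY.add r hr t u
  · intro r s hr hs h t u
    simp only [if_pos hr, if_pos hs]
    exact hY.comm r s hr hs h t u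
  · intro r s hr hs h t u
    simp only [if_pos hr, if_pos hs, if_pos h]
    exact hY.sum r s hr hs h t u

end SLData

/-- compatibility of the tables with an embedding of root systems -/
noncomputable def subb (T T' : Fast) (iT r s : ℕ) : Bool :=
  ltb (byteAt iT r) T'.n && Nat.beq (byteAt iT (T.neg r)) (T'.neg (byteAt iT r)) &&
  (!(cmb T r s) || cmb T' (byteAt iT r) (byteAt iT s)) &&
  (!(ltb (smT T r s) T.n) || (Nat.beq (smT T' (byteAt iT r) (byteAt iT s)) (byteAt iT (smT T r s)) &&
    Nat.beq (sgT T' (byteAt iT r) (byteAt iT s)) (sgT T r s)))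

theorem subb_spec {T T' : Fast} {iT r s : ℕ} (h : subb T T' iT r s = true) :
    byteAt iT r < T'.n ∧ byteAt iT (T.neg r) = T'.neg (byteAt iT r) ∧
    (cmb T r s = true → cmb T' (byteAt iT r) (byteAt iT s) = true) ∧
    (smT T r s < T.n → smT T' (byteAt iT r) (byteAt iT s) = byteAt iT (smT T r s) ∧
      sgT T' (byteAt iT r) (byteAt iT s) = sgT T r s) := by
  unfold subb at h
  simp only [Bool.and_eq_true, Bool.or_eq_true, Bool.not_eq_true', ← Bool.not_eq_true, nbeq_iff, ltb_iff,
    and_assoc] at h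
  obtain ⟨h1, h2, h3, h4⟩ := h
  exact ⟨h1, h2, fun hc => h3.resolve_left (fun h => h hc), fun hc => h4.resolve_left (fun h => h hc)⟩

section hom

variable {D D' : ChevalleyDatum} {T T' : Fast} {K : Type*} [Field K]

theorem relAB_xg (hB' : Base D' K) : RelAB D' K hB'.xg where
  add := fun r _ t u => hB'.xg_add r t u
  comm := by
    intro r s hr hs h1 h2 t u
    have := hB'.comm_xg hr hs h1 h2 t u
    have e : hB'.xg s u * hB'.xg r t = hB'.xg r t * ((hB'.xg r t)⁻¹ * hB'.xg s u * hB'.xg r t) := by group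
    rw [e, this, mul_assoc]
    rfl

/-- the images of the generators -/
noncomputable def subY (hB' : Base D' K) (n iT : ℕ) (r : ℕ) (t : K) : GL D'.Idx K :=
  if r < n then hB'.xg (byteAt iT r) t else 1

theorem relAB_subY (hA : Agree D T) (hA' : Agree D' T') (hB' : Base D' K) {iT : ℕ}
    (hsl : ∀ r < T.n, ∀ s < T.n, slb T r s = true) (hsl' : ∀ r < T'.n, ∀ s < T'.n, slb T' r s = true)
    (hsub : ∀ r < T.n, ∀ s < T.n, subb T T' iT r s = true) : RelAB D K (subY hB' T.n iT) := by
  have h1 : (slOf K T' 0).Rep hB'.xg := rep_of_relAB 0 hA' hsl' (relAB_xg hB')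
  have h2 : (slOf K T 0).Rep (fun r t => hB'.xg (byteAt iT r) t) := by
    refine SLData.Rep.sub (A := slOf K T 0) (A' := slOf K T' 0) ?_ ?_ ?_ h1
    · intro r hr
      exact (subb_spec (hsub r hr r hr)).1
    · intro r s hr hs hc
      exact (subb_spec (hsub r hr s hs)).2.2.1 hc
    · intro r s hr hs hq
      obtain ⟨e1, e2⟩ := (subb_spec (hsub r hr s hs)).2.2.2 hq
      refine ⟨e1, ?_⟩
      show (if sgT T' (byteAt iT r) (byteAt iT s) = 2 then (-1 : K) else 1) = if sgT T r s = 2 then (-1 : K) else 1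
      rw [e2]
  exact relAB_of_rep 0 hA hsl h2.restrict

variable (hA : Agree D T) (hB' : Base D' K) (iT : ℕ)

theorem lift_subY_stX (r : ℕ) (t : K) :
    FreeGroup.lift (fun p : Fin D.nroots × K => subY hB' D.nroots iT p.1 p.2) (D.stX r t) =
      subY hB' D.nroots iT r t := by
  unfold ChevalleyDatum.stX
  split_ifs with hr
  · rw [FreeGroup.lift_apply_of]
  · rw [map_one]; unfold subY; rw [if_neg hr]

theorem lift_subY_stWord (w : List (ℕ × K)) :
    FreeGroup.lift (fun p : Fin D.nroots × K => subY hB' D.nroots iT p.1 p.2) (D.stWord w) =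
      (w.map fun p => subY hB' D.nroots iT p.1 p.2).prod := by
  unfold ChevalleyDatum.stWord
  rw [map_list_prod, List.map_map]
  congr 1
  apply List.map_congr_left
  intro p _
  exact lift_subY_stX hB' iT p.1 p.2

theorem lift_subY_stH {r : ℕ} (hr : r < D.nroots) (hn : D.neg r < D.nroots)
    (hneg : byteAt iT (D.neg r) = D'.neg (byteAt iT r)) (t : K) :
    FreeGroup.lift (fun p : Fin D.nroots × K => subY hB' D.nroots iT p.1 p.2) (D.stH r t) =
      hB'.hg (byteAt iT r) t := by
  unfold ChevalleyDatum.stH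
  rw [lift_subY_stWord]
  simp only [ChevalleyDatum.hWord, ChevalleyDatum.nWord, List.cons_append, List.nil_append, List.map_cons,
    List.map_nil, List.prod_cons, List.prod_nil, mul_one, subY, if_pos hr, if_pos hn, hneg]
  unfold Base.hg Base.ng
  simp only [mul_assoc]

end hom

end Cfsg.Agent.Lib.Helper36
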