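import Cfsg.Agent.Lib.Helper36.StSub

/-!
# The centre of the Steinberg group of a simply laced subsystem of a type with unimodular Cartan matrix
-/

set_option autoImplicit false

namespace Cfsg.Agent.Lib.Helper36

open Cfsg.Lie Cfsg.Agent.Lib.Helper18 Cfsg.Agent.Lib.Helper17

/-- an embedding of simply laced types, given by a table -/
structure SubData (D D' : ChevalleyDatum) (T T' : Fast) (iT : ℕ) : Prop where
  hA : Agree D T
  hA' : Agree D' T'
  hsl : ∀ r < T.n, ∀ s < T.n, slb T r s = true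
  hsl' : ∀ r < T'.n, ∀ s < T'.n, slb T' r s = true
  hsub : ∀ r < T.n, ∀ s < T.n, subb T T' iT r s = true
  hrank : D.rank ≤ D'.rank
  hsimple : ∀ i < D.rank, byteAt iT (D.simple i) = D'.simple i

variable {D D' : ChevalleyDatum} {T T' : Fast} {iT : ℕ} {K : Type*} [Field K]

theorem exists_sub_hom (hD' : D' ∈ [chevG2, chevB2, chevD4, chevF4, chevE6, chevE7, chevE8]) (X : SubData D D' T T' iT)
    (hT : Tab D) (hB' : Base D' K) :
    ∃ Ψ : D.SteinbergGroup K →* GL D'.Idx K, ∀ i, i < D.rank → ∀ t : K,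
      Ψ (PresentedGroup.mk (D.steinbergRels K) (D.stH (D.simple i) t)) = hB'.hg (D'.simple i) t := by
  have hY : RelAB D K (subY hB' D.nroots iT) := by
    have := relAB_subY X.hA X.hA' hB' X.hsl X.hsl' X.hsub
    rwa [X.hA.hn] at this
  have hH : ∀ r, r < D.nroots → ∀ t : K,
      FreeGroup.lift (fun p : Fin D.nroots × K => subY hB' D.nroots iT p.1 p.2) (D.stH r t) =
        hB'.hg (byteAt iT r) t := by
    intro r hr t
    have hr' : r < T.n := X.hA.hn ▸ hr
    have h1 := subb_spec (X.hsub r hr' r hr')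
    apply lift_subY_stH hB' iT hr
    · rw [neg_eq_T X.hA hr', ← X.hA.hn]; exact X.hA.neg_lt r hr'
    · rw [neg_eq_T X.hA hr', neg_eq_T X.hA' h1.1]; exact h1.2.1
  have hrel : ∀ g ∈ D.steinbergRels K,
      FreeGroup.lift (fun p : Fin D.nroots × K => subY hB' D.nroots iT p.1 p.2) g = 1 := by
    rintro g ((⟨r, t₁, t₂, hr, rfl⟩ | ⟨r, s, t, u, hr, hs, h1, h2, rfl⟩) | ⟨r, t₁, t₂, hr, h1, h2, rfl⟩)
    · rw [map_mul, map_mul, map_inv, lift_subY_stX, lift_subY_stX, lift_subY_stX, hY.add r hr, mul_inv_cancel]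
    · rw [map_mul, map_mul, map_mul, map_mul, map_inv, map_inv, map_inv, lift_subY_stX, lift_subY_stX,
        lift_subY_stWord]
      have := hY.comm r s hr hs h1 h2 t u
      rw [mul_assoc ((subY hB' D.nroots iT s u)⁻¹ * (subY hB' D.nroots iT r t)⁻¹), this]
      group
    · rw [map_mul, map_mul, map_inv, hH r hr, hH r hr, hH r hr]
      have hr' : r < T.n := X.hA.hn ▸ hr
      have hlt : byteAt iT r < D'.nroots := X.hA'.hn ▸ (subb_spec (X.hsub r hr' r hr')).1
      have : hB'.hg (byteAt iT r) t₁ * hB'.hg (byteAt iT r) t₂ = hB'.hg (byteAt iT r) (t₁ * t₂) :=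
        Units.ext (by
          rw [Units.val_mul, hB'.coe_hg, hB'.coe_hg, hB'.coe_hg]
          exact Cfsg.Agent.S1076.result D' hD' _ hlt t₁ t₂ h1 h2)
      rw [this, mul_inv_cancel]
  refine ⟨PresentedGroup.toGroup hrel, ?_⟩
  intro i hi t
  have : PresentedGroup.toGroup hrel (PresentedGroup.mk (D.steinbergRels K) (D.stH (D.simple i) t)) =
      FreeGroup.lift (fun p : Fin D.nroots × K => subY hB' D.nroots iT p.1 p.2) (D.stH (D.simple i) t) := rfl
  rw [this, hH _ (hT.simple_lt i hi), X.hsimple i hi]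

/-- extension of a tuple by ones -/
def extT (D D' : ChevalleyDatum) (c : Fin D.rank → Kˣ) : Fin D'.rank → Kˣ :=
  fun i => if h : (i : ℕ) < D.rank then c ⟨i, h⟩ else 1

theorem hl_append (hB' : Base D' K) (c : ℕ → K) (L₁ L₂ : List ℕ) :
    hB'.hl c (L₁ ++ L₂) = hB'.hl c L₁ * hB'.hl c L₂ := by
  simp [Base.hl]

theorem hl_one (hB' : Base D' K) (c : ℕ → K) (L : List ℕ) (h : ∀ i ∈ L, c i = 1) : hB'.hl c L = 1 := by
  induction L with
  | nil => rfl
  | cons a L ih =>
    have e : hB'.hl c (a :: L) = hB'.hg (D'.simple a) (c a) * hB'.hl c L := by simp [Base.hl]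
    rw [e, h a List.mem_cons_self, hB'.hg_one, one_mul, ih (fun i hi => h i (List.mem_cons_of_mem _ hi))]

theorem hl_congr (hB' : Base D' K) {c c' : ℕ → K} {L : List ℕ} (h : ∀ i ∈ L, c i = c' i) :
    hB'.hl c L = hB'.hl c' L := by
  unfold Base.hl
  congr 1
  exact List.map_congr_left fun i hi => by rw [h i hi]

theorem hHom_extT (hB' : Base D' K) (hrank : D.rank ≤ D'.rank) (c : Fin D.rank → Kˣ) :
    hB'.hHom (extT D D' c) = hB'.hl (extU c) (List.range D.rank) := by
  obtain ⟨k, hk⟩ := Nat.exists_eq_add_of_le hrank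
  rw [Base.hHom_apply]
  unfold Base.hprod
  have hr : List.range D'.rank = List.range D.rank ++ (List.range k).map (D.rank + ·) := by
    rw [hk, List.range_add]
  rw [hr, hl_append, hl_one hB' _ ((List.range k).map _), mul_one]
  · apply hl_congr
    intro i hi
    have hi' : i < D.rank := List.mem_range.mp hi
    have hi2 : i < D'.rank := lt_of_lt_of_le hi' hrank
    simp [extU, extT, hi', hi2]
  · intro i hi
    obtain ⟨j, -, rfl⟩ := List.mem_map.mp hi
    unfold extU extT
    split_ifs with h1 h2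
    · exact absurd h2 (by simp)
    · rfl
    · rfl

theorem card_center_of_sub (hD : D ∈ [chevG2, chevB2, chevD4, chevF4, chevE6, chevE7, chevE8])
    (hD' : D' ∈ [chevG2, chevB2, chevD4, chevF4, chevE6, chevE7, chevE8]) (X : SubData D D' T T' iT)
    (A' : Matrix (Fin D'.rank) (Fin D'.rank) ℤ)
    (hA' : (Matrix.of fun i j : Fin D'.rank => D'.cartan i (D'.simple j)) * A' = 1) :
    Nat.card (Subgroup.center (D.SteinbergGroup K)) =
      Nat.card (muMap (G := Kˣ) (Matrix.of fun i j : Fin D.rank => D.cartan i (D.simple j))).ker := by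
  obtain ⟨T0, W, A⟩ := exists_allH K hD
  obtain ⟨T1, W1, A1⟩ := exists_allH K hD'
  have hB' := A1.hB
  have hrel := lift_rels hD A.hB
  have hAB : D.steinbergRelsAB K ⊆ D.steinbergRels K := Set.subset_union_left
  obtain ⟨h1, h2, h3⟩ := generic_main A.hB (D.steinbergRels K) hAB hrel A
  set θ := thetaOf A.hB (D.steinbergRels K) hrel with hθ
  let S := stdOf' A.hB (D.steinbergRels K) hAB hrel θ h3
  have hR3 : S.R3 := by
    intro i hi t u ht hu
    simp only [S, stdOf'_hh]
    have hm : D.stH (D.simple i) t * D.stH (D.simple i) u * (D.stH (D.simple i) (t * u))⁻¹ ∈ D.steinbergRels K :=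
      Or.inr ⟨D.simple i, t, u, A.hT.simple_lt i hi, ht, hu, rfl⟩
    have := PresentedGroup.one_of_mem hm
    rw [map_mul, map_mul, map_inv] at this
    exact mul_inv_eq_one.mp this
  obtain ⟨Ψ, hΨ⟩ := exists_sub_hom (K := K) hD' X A.hT hB'
  have hΨhp : ∀ (c : ℕ → K) (L : List ℕ), (∀ i ∈ L, i < D.rank) → Ψ (S.hp L c) = hB'.hl c L := by
    intro c L hL
    unfold StD.hp Base.hl
    rw [map_list_prod, List.map_map]
    congr 1
    apply List.map_congr_left
    intro i hi
    show Ψ (S.hh i (c i)) = _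
    simp only [S, stdOf'_hh]
    exact hΨ i (hL i hi) (c i)
  have hθhp : ∀ c : ℕ → K, S.θ (S.hp (List.range D.rank) c) = A.hB.hprod c := by
    intro c
    unfold StD.hp Base.hprod Base.hl
    rw [map_list_prod, List.map_map]
    congr 1
    apply List.map_congr_left
    intro i hi
    exact S.θ_hh A (List.mem_range.mp hi) (c i)
  have hinj' : Function.Injective hB'.hHom := by
    rw [← MonoidHom.ker_eq_bot_iff, hB'.ker_hHom A1.h A1.hT, eq_bot_iff]
    intro c hc
    rw [MonoidHom.mem_ker] at hc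
    have := congrArg (muMap A') hc
    rwa [← muMap_mul, hA', muMap_one, map_one] at this
  have hcen : ∀ c : (muMap (G := Kˣ) (Matrix.of fun i j : Fin D.rank => D.cartan i (D.simple j))).ker,
      S.hp (List.range D.rank) (extU c.1) ∈ Subgroup.center (D.SteinbergGroup K) := by
    intro c
    apply h2
    rw [MonoidHom.mem_ker]
    apply Subtype.ext
    have e1 : ((θ (S.hp (List.range D.rank) (extU c.1)) : ↥(D.group K)) : GL D.Idx K) =
        S.θ (S.hp (List.range D.rank) (extU c.1)) := rfl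
    rw [e1, hθhp, ← Base.hHom_apply]
    have : c.1 ∈ A.hB.hHom.ker := by rw [A.hB.ker_hHom A.h A.hT]; exact c.2
    exact this
  symm
  refine Nat.card_congr (Equiv.ofBijective (fun c => ⟨S.hp (List.range D.rank) (extU c.1), hcen c⟩) ⟨?_, ?_⟩)
  · intro c c₂ h
    have e1 : S.hp (List.range D.rank) (extU c.1) = S.hp (List.range D.rank) (extU c₂.1) := congrArg Subtype.val h
    have e2 := congrArg Ψ e1
    rw [hΨhp _ _ (fun i hi => List.mem_range.mp hi), hΨhp _ _ (fun i hi => List.mem_range.mp hi),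
      ← hHom_extT hB' X.hrank, ← hHom_extT hB' X.hrank] at e2
    have e3 := hinj' e2
    apply Subtype.ext
    funext i
    have := congrFun e3 ⟨i, lt_of_lt_of_le i.2 X.hrank⟩
    simpa [extT] using this
  · rintro ⟨z, hz⟩
    have hker : z ∈ θ.ker := by
      rw [MonoidHom.mem_ker]
      have hc : θ z ∈ Subgroup.center ↥(D.group K) := by
        rw [Subgroup.mem_center_iff]
        intro g
        obtain ⟨x, rfl⟩ := h1 g
        rw [← map_mul, ← map_mul, Subgroup.mem_center_iff.mp hz x]
      rw [center_group hD] at hc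
      exact hc
    have hHH : z ∈ S.HH := by
      have := generic_ker_le A.hB (D.steinbergRels K) hAB hrel hD A θ h3 hker
      unfold StD.HH
      simp only [S, stdOf'_hh]
      exact this
    obtain ⟨c, hc, rfl⟩ := S.exists_hp A hR3 hHH
    let cu : Fin D.rank → Kˣ := fun i => Units.mk0 (c i) (hc i)
    have hmu : muMap (Matrix.of fun i j : Fin D.rank => D.cartan i (D.simple j)) cu = 1 := by
      ext j
      have hs := A.hT.simple_lt j j.2
      have e1 := S.hp_conj_X A c hc hs (List.range D.rank) (fun k hk => List.mem_range.mp hk) 1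
      rw [← Subgroup.mem_center_iff.mp hz, mul_inv_cancel_right, mul_one] at e1
      have e2 := S.X_inj A hs e1
      rw [muMap_apply, Pi.one_apply, Units.val_one, e2, list_prod_range', ← Fin.prod_univ_eq_prod_range,
        Units.coe_prod]
      apply Finset.prod_congr rfl
      intro i _
      rw [Units.val_zpow_eq_zpow_val]
      rfl
    refine ⟨⟨cu, hmu⟩, Subtype.ext ?_⟩
    apply S.hp_congr
    intro i hi
    have hi' : i < D.rank := List.mem_range.mp hi
    simp [extU, hi', cu]

end Cfsg.Agent.Lib.Helper36
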