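import Cfsg.Agent.Lib.Helper36.StSubData

/-!
# The order of the centre of the Steinberg groups of type `E₆` and `E₇`
-/

set_option autoImplicit false

namespace Cfsg.Agent.Lib.Helper36

open Cfsg.Lie Cfsg.Agent.Lib.Helper18 Cfsg.Agent.Lib.Helper17

theorem card_center_E6 (K : Type*) [Field K] [Fintype K] :
    Nat.card (Subgroup.center (chevE6.SteinbergGroup K)) = Nat.gcd 3 (Fintype.card K - 1) := by
  rw [card_center_of_sub (K := K) (by simp) (by simp) subDataE6 cInvE8 cartanInv_E8]
  obtain ⟨T, W, hc⟩ := exists_checks chevE6 (by simp)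
  have h1 := (base_of_mem K (D := chevE6) (by simp)).card_H hc (tab_of_mem (by simp))
  have h2 := card_H_E6 K
  have h3 : 0 < Nat.card (chevE6.diagonalSubgroup K) := Nat.card_pos
  exact Nat.eq_of_mul_eq_mul_right h3 (h1.trans h2.symm)

theorem card_center_E7 (K : Type*) [Field K] [Fintype K] :
    Nat.card (Subgroup.center (chevE7.SteinbergGroup K)) = Nat.gcd 2 (Fintype.card K - 1) := by
  rw [card_center_of_sub (K := K) (by simp) (by simp) subDataE7 cInvE8 cartanInv_E8]
  obtain ⟨T, W, hc⟩ := exists_checks chevE7 (by simp)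
  have h1 := (base_of_mem K (D := chevE7) (by simp)).card_H hc (tab_of_mem (by simp))
  have h2 := card_H_E7 K
  have h3 : 0 < Nat.card (chevE7.diagonalSubgroup K) := Nat.card_pos
  exact Nat.eq_of_mul_eq_mul_right h3 (h1.trans h2.symm)

/-- a group of order `gcd p m`, `p` prime, is cyclic of that order -/
theorem nonempty_equiv_zmod_of_card_gcd {G : Type*} [Group G] {p m : ℕ} (hp : p.Prime) (h : Nat.card G = Nat.gcd p m) :
    Nonempty (G ≃* Multiplicative (ZMod (Nat.gcd p m))) := by
  have hcyc : IsCyclic G := by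
    rcases (Nat.dvd_prime hp).mp (Nat.gcd_dvd_left p m) with h1 | h1
    · rw [h1] at h
      have : Subsingleton G := (Nat.card_eq_one_iff_unique.mp h).1
      exact isCyclic_of_subsingleton
    · rw [h1] at h
      have : Fact p.Prime := ⟨hp⟩
      exact isCyclic_of_prime_card h
  rw [← h]
  exact ⟨(zmodCyclicMulEquiv hcyc).symm⟩

end Cfsg.Agent.Lib.Helper36
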