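import Cfsg.Agent.Lib.Helper36.StSub2
import Cfsg.Agent.Lib.Helper36.StRoomE6
import Cfsg.Agent.Lib.Helper36.StRoomE7
import Cfsg.Agent.Lib.Helper36.StRoomE8

/-! # The embeddings of `E₆` and `E₇` in `E₈` (generated tables, kernel checks) -/

set_option autoImplicit false
set_option maxRecDepth 100000

namespace Cfsg.Agent.Lib.Helper36

open Cfsg.Lie

def subE6 : ℕ := 0xccc2bcb9b8b2afaeabaaa9a6a5a4a3a29c9998959493908f8e8d8a8988878483827f7e7b7471706d6c6b686766656261605f5c5b5a5756534d4c4b4a4946454441403d3736332d23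

theorem subbE6 : allN (fun r => allN (fun s => subb fastE6 fastE8 subE6 r s) 72) 72 = true := by
  decide +kernel

theorem subSE6 : ∀ i < chevE6.rank, byteAt subE6 (chevE6.simple i) = chevE8.simple i := by
  decide +kernel

theorem subDataE6 : SubData chevE6 chevE8 fastE6 fastE8 subE6 where
  hA := checksE6.agree
  hA' := checksE8.agree
  hsl := slbE6
  hsl' := slbE8
  hsub := fun r hr => (allN_iff _ _).mp ((allN_iff _ _).mp subbE6 r hr)
  hrank := by decide
  hsimple := subSE6

def subE7 : ℕ := 0xe2dbd6d2cfcdccc8c5c3c2bfbdbcbab9b8b5b3b2b0afaeacabaaa9a7a6a5a4a3a29f9d9c9a99989695949391908f8e8d8b8a89888785848382807f7e7c7b7976747371706f6d6c6b6a68676665646261605f5e5c5b5a595756555352504d4c4b4a49484645444341403f3d3c3a3736353332302d2c2a272322201d19140d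

theorem subbE7 : allN (fun r => allN (fun s => subb fastE7 fastE8 subE7 r s) 126) 126 = true := by
  decide +kernel

theorem subSE7 : ∀ i < chevE7.rank, byteAt subE7 (chevE7.simple i) = chevE8.simple i := by
  decide +kernel

theorem subDataE7 : SubData chevE7 chevE8 fastE7 fastE8 subE7 where
  hA := checksE7.agree
  hA' := checksE8.agree
  hsl := slbE7
  hsl' := slbE8
  hsub := fun r hr => (allN_iff _ _).mp ((allN_iff _ _).mp subbE7 r hr)
  hrank := by decide
  hsimple := subSE7

end Cfsg.Agent.Lib.Helper36
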